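/-
Helper library (helper31): Bender–Glauberman Section 11 (exceptional maximal subgroups): interface.
`Exc M p A A₀` is BG Hypothesis 11.1.  `ExcConcl M p A` is the conclusion of S1417 (BG 12.5).
Pending rows enter as explicit hypotheses (`PL1` = S1410, `H1412` = S1412, `H1414` = part of S1414,
`H3769` = S3769).
-/
import Cfsg.Agent.Lib.Helper24.BG10c

set_option autoImplicit false

namespace Cfsg.Agent.Lib.Helper31.BG11

open Cfsg

universe u

variable {G : Type u} [Group G]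

/-- BG Hypothesis 11.1: `M` is an "exceptional" maximal subgroup for `p`, `A`, `A₀`. -/
structure Exc (M : Subgroup G) (p : ℕ) (A A₀ : Subgroup G) : Prop where
  coatom : IsCoatom M
  notSigma : p ∉ sigma M
  AM : A ≤ M
  elem : IsElementaryAbelian p A
  card : Nat.card A = p ^ 2
  A₀A : A₀ ≤ A
  card₀ : Nat.card A₀ = p
  norm : Subgroup.normalizer (A₀ : Set G) ≤ M

/-- The conclusion of S1417 (BG Theorem 12.5). -/
def ExcConcl (M : Subgroup G) (p : ℕ) [Fact p.Prime] (A : Subgroup G) : Prop :=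
  Group.IsNilpotent (Cfsg.sigmaCore M) ∧
      (∀ P : Sylow p M, IsMulCommutative (P : Subgroup M) ∧
        (A ≤ (P : Subgroup M).map M.subtype →
          (∀ x ∈ (P : Subgroup M).map M.subtype, x ^ p = 1 ↔ x ∈ A) ∧
          ¬ Subgroup.normalizer ((((P : Subgroup M).map M.subtype : Subgroup G)) : Set G) ≤ M)) ∧
      M ≤ Subgroup.normalizer ((Cfsg.sigmaCore M ⊔ A : Subgroup G) : Set G) ∧
      Cfsg.sigmaCore M ⊓ Subgroup.centralizer (A : Set G) = ⊥ ∧
      (∀ Mstar : Subgroup G, IsCoatom Mstar → Mstar ≠ M → A ≤ Mstar → Cfsg.sigmaCore M ⊓ Mstar = ⊥) ∧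
      ∃ A₁ : Subgroup G, A₁ ≤ A ∧ Nat.card A₁ = p ∧ Cfsg.sigmaCore M ⊓ Subgroup.centralizer (A₁ : Set G) = ⊥

/-- The main theorem of BG Section 11, as a statement about `G`. -/
def ExcThm (G : Type u) [Group G] : Prop :=
  ∀ (M : Subgroup G) (p : ℕ) [Fact p.Prime] (A A₀ : Subgroup G), Exc M p A A₀ → ExcConcl M p A

/-- S1410 (every proper subgroup has `p`-length one). -/
def PL1 (G : Type u) [Group G] : Prop :=
  ∀ (p : ℕ) [Fact p.Prime] (H : Subgroup G), H ≠ ⊤ → Cfsg.PLengthLE p 1 H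

/-- S1412 (Sylow subgroups of rank two). -/
def H1412 (G : Type u) [Group G] : Prop :=
  ∀ (p : ℕ) [Fact p.Prime] (P : Sylow p G), Cfsg.PRankLE p 2 (P : Subgroup G) →
    IsMulCommutative (P : Subgroup G) ∨ ∃ P₁ P₂ : Subgroup G, P₁ ⊔ P₂ = (P : Subgroup G) ∧
        (∀ a ∈ P₁, ∀ b ∈ P₂, a * b = b * a) ∧
        ¬ IsMulCommutative P₁ ∧ Nat.card P₁ = p ^ 3 ∧ Monoid.exponent P₁ = p ∧ IsCyclic P₂ ∧
        Subgroup.closure {x : G | x ∈ P₂ ∧ x ^ p = 1} = P₁ ⊓ Subgroup.centralizer (P₁ : Set G)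

/-- The part of S1414 that is used: `M_σ` has a normal `p`-complement for `p ∉ β(M)`. -/
def H1414 (G : Type u) [Group G] : Prop :=
  ∀ M : Subgroup G, IsCoatom M → ∀ p : ℕ, p.Prime → p ∣ Nat.card M → p ∉ Cfsg.beta M →
    Cfsg.HasNormalPComplement p ↥(Cfsg.sigmaCore M)

/-- S3769 (BG Theorem 3.4), in universe `u`. -/
def H3769 : Prop :=
  ∀ {X : Type u} [Group X] [Finite X] (G : Subgroup X) (_ : Group.IsSolvable G) (_ : Odd (Nat.card G))
    (V : Subgroup X) {ℓ : ℕ} (_ : ℓ.Prime) (_ : Cfsg.IsElementaryAbelian ℓ V) (_ : ¬ ℓ ∣ Nat.card G)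
    (_ : G ≤ Subgroup.normalizer (V : Set X)) (K R : Subgroup X) (_ : K ≤ G)
    (_ : G ≤ Subgroup.normalizer (K : Set X)) (_ : (Nat.card K).Coprime (K.relIndex G)) (_ : R ≤ G)
    (_ : (Nat.card R).Prime) (_ : K ⊓ R = ⊥) (_ : K ⊔ R = G)
    (_ : V ⊓ Subgroup.centralizer (R : Set X) = ⊥), ⁅R, K⁆ ≤ Subgroup.centralizer (V : Set X)

end Cfsg.Agent.Lib.Helper31.BG11
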