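/-
Helper library (helper31): Bender–Glauberman Section 11: the split of `ExcThm` into three
independent pieces (`ExcAbel` = 11.5, `ExcThm'` = 11.1-11.6 and (e), `ExcNormal` = 11.7).
-/
import Cfsg.Agent.Lib.Helper31.BG11Defs

set_option autoImplicit false

namespace Cfsg.Agent.Lib.Helper31.BG11

open Cfsg

universe u

variable {G : Type u} [Group G]

/-- The conclusion of S1417 without item (c). -/
def ExcConcl' (M : Subgroup G) (p : ℕ) [Fact p.Prime] (A : Subgroup G) : Prop :=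
  Group.IsNilpotent (Cfsg.sigmaCore M) ∧
      (∀ P : Sylow p M, IsMulCommutative (P : Subgroup M) ∧
        (A ≤ (P : Subgroup M).map M.subtype →
          (∀ x ∈ (P : Subgroup M).map M.subtype, x ^ p = 1 ↔ x ∈ A) ∧
          ¬ Subgroup.normalizer ((((P : Subgroup M).map M.subtype : Subgroup G)) : Set G) ≤ M)) ∧
      Cfsg.sigmaCore M ⊓ Subgroup.centralizer (A : Set G) = ⊥ ∧
      (∀ Mstar : Subgroup G, IsCoatom Mstar → Mstar ≠ M → A ≤ Mstar → Cfsg.sigmaCore M ⊓ Mstar = ⊥) ∧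
      ∃ A₁ : Subgroup G, A₁ ≤ A ∧ Nat.card A₁ = p ∧ Cfsg.sigmaCore M ⊓ Subgroup.centralizer (A₁ : Set G) = ⊥

/-- BG 11.1-11.6 and item (e). -/
def ExcThm' (G : Type u) [Group G] : Prop :=
  ∀ (M : Subgroup G) (p : ℕ) [Fact p.Prime] (A A₀ : Subgroup G), Exc M p A A₀ → ExcConcl' M p A

/-- BG 11.5: the Sylow `p`-subgroups of an exceptional maximal subgroup are abelian. -/
def ExcAbel (G : Type u) [Group G] : Prop :=
  ∀ (M : Subgroup G) (p : ℕ) [Fact p.Prime] (A A₀ : Subgroup G), Exc M p A A₀ →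
    ∀ P : Sylow p M, IsMulCommutative (P : Subgroup M)

/-- BG 11.7: `M_σ A` is normal in `M`. -/
def ExcNormal (G : Type u) [Group G] : Prop :=
  ∀ (M : Subgroup G) (p : ℕ) [Fact p.Prime] (A A₀ : Subgroup G), Exc M p A A₀ →
    M ≤ Subgroup.normalizer ((Cfsg.sigmaCore M ⊔ A : Subgroup G) : Set G)

theorem ExcThm.of (h : ExcThm' G) (hn : ExcNormal G) : ExcThm G := by
  intro M p _ A A₀ hE
  obtain ⟨h1, h2, h3, h4, h5⟩ := h M p A A₀ hE
  exact ⟨h1, h2, hn M p A A₀ hE, h3, h4, h5⟩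

end Cfsg.Agent.Lib.Helper31.BG11
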