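import Cfsg.Agent.Lib.Helper23.LBal5
import Cfsg.Agent.Lib.Helper22.CoreOf
import Cfsg.Agent.Lib.Helper22.SupLemmas
import Cfsg.Agent.Lib.Helper91.FrattiniMore

set_option autoImplicit false

/-! General lemmas for the unconditional `L_{2'}`-balance theorem. -/

namespace Cfsg.Agent.Lib.Helper31

open Subgroup
open scoped commutatorElement
open Cfsg.Agent.Lib.Helper23 (coreOf coreOf_le le_coreOf card_coreOf_coprime
  normalizer_le_normalizer_coreOf le_normalizer_inf' commutator_le_of_perfect_mod)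

variable {X : Type*} [Group X]

/-- If all `p`-elements of `A` lie in a central subgroup `Z` of `A` then `A = Z O_{p'}(A)`. -/
theorem le_sup_coreOf_of_central [Finite X] (p : ℕ) [Fact p.Prime] {A Z : Subgroup X}
    (hZc : A ≤ centralizer (Z : Set X))
    (h : ∀ x ∈ A, (∃ k : ℕ, x ^ (p ^ k) = 1) → x ∈ Z) : A ≤ Z ⊔ coreOf p A := by
  obtain ⟨P⟩ : Nonempty (Sylow p ↥A) := inferInstance
  have hPZ : ∀ x ∈ P, (x : X) ∈ Z := by
    intro x hx
    apply h x x.2
    obtain ⟨k, hk⟩ := P.2 ⟨x, hx⟩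
    refine ⟨k, ?_⟩
    have := congrArg Subtype.val hk
    exact congrArg Subtype.val this
  have hP : normalizer ((P : Subgroup ↥A) : Set ↥A) ≤ centralizer ((P : Subgroup ↥A) : Set ↥A) := by
    intro a _
    rw [mem_centralizer_iff]
    intro x hx
    exact Subtype.ext (mem_centralizer_iff.mp (hZc a.2) x (hPZ x hx))
  have hc := MonoidHom.ker_transferSylow_isComplement' P hP
  have hnd := MonoidHom.not_dvd_card_ker_transferSylow P hP
  have hK : (MonoidHom.transferSylow P hP).ker ≤ Cfsg.pPrimeCore p ↥A :=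
    Cfsg.Agent.Lib.Lead.le_pPrimeCore inferInstance
      ((Nat.Prime.coprime_iff_not_dvd (Fact.out : p.Prime)).mpr hnd).symm
  intro a ha
  have h1 : (⟨a, ha⟩ : ↥A) ∈ (MonoidHom.transferSylow P hP).ker ⊔ (P : Subgroup ↥A) := by
    rw [hc.sup_eq_top]; exact mem_top _
  obtain ⟨k, hk, s, hs, hks⟩ := mem_sup_of_normal_left.mp h1
  have h2 : a = (k : X) * (s : X) := by
    have := congrArg Subtype.val hks
    exact this.symm
  rw [h2]
  exact mul_mem (mem_sup_right ⟨k, hK hk, rfl⟩) (mem_sup_left (hPZ s hs))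

/-- `[A ⊔ W, A ⊔ W] ≤ [A, A] W` when `A` normalizes `W`. -/
theorem commutator_sup_le_of_le_normalizer {A W : Subgroup X}
    (hA : A ≤ normalizer (W : Set X)) : ⁅A ⊔ W, A ⊔ W⁆ ≤ ⁅A, A⁆ ⊔ W := by
  have hn : ∀ a ∈ normalizer (W : Set X), ∀ r ∈ W, a * r * a⁻¹ ∈ W :=
    (le_normalizer_iff (H := normalizer (W : Set X)) (K := W)).1 le_rfl
  have hAW : A ⊔ W ≤ normalizer (W : Set X) := sup_le hA le_normalizer
  rw [commutator_le]
  intro a ha b hb
  rw [sup_comm] at ha hb
  have hbN : b ∈ normalizer (W : Set X) := hAW (by rwa [sup_comm])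
  obtain ⟨w₁, hw₁, a₁, ha₁, rfl⟩ := (Cfsg.Agent.Lib.Helper22.mem_sup_of_le_normalizer hA).mp ha
  obtain ⟨w₂, hw₂, a₂, ha₂, rfl⟩ := (Cfsg.Agent.Lib.Helper22.mem_sup_of_le_normalizer hA).mp hb
  have e : ⁅w₁ * a₁, w₂ * a₂⁆ =
      w₁ * (a₁ * w₂ * a₁⁻¹) * ⁅a₁, a₂⁆ * (a₂ * w₁⁻¹ * a₂⁻¹) * w₂⁻¹ := by
    simp only [commutatorElement_def]; group
  rw [e]
  refine mul_mem (mul_mem (mul_mem (mul_mem (mem_sup_right hw₁) (mem_sup_right ?_))
    (mem_sup_left (commutator_mem_commutator ha₁ ha₂))) (mem_sup_right ?_))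
    (mem_sup_right (inv_mem hw₂))
  · exact hn _ (hA ha₁) _ hw₂
  · exact hn _ (hA ha₂) _ (inv_mem hw₁)

/-- A perfect group covered by `D W` is covered by `L₁ W` for a perfect subgroup `L₁` of `D`. -/
theorem exists_perfect_le_sup [Finite X] {D L W : Subgroup X} (hperf : ⁅L, L⁆ = L)
    (hDW : D ≤ normalizer (W : Set X)) (hL : L ≤ D ⊔ W) :
    ∃ L₁ : Subgroup X, L₁ ≤ D ∧ ⁅L₁, L₁⁆ = L₁ ∧ L ≤ L₁ ⊔ W := by
  obtain ⟨L₁, hL₁⟩ := exists_minimal_of_wellFoundedLT
    (fun M : Subgroup X => M ≤ D ∧ L ≤ M ⊔ W) ⟨D, le_rfl, hL⟩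
  refine ⟨L₁, hL₁.prop.1, ?_, hL₁.prop.2⟩
  have hle : ⁅L₁, L₁⁆ ≤ L₁ := commutator_le_self L₁
  apply le_antisymm hle
  apply hL₁.le_of_le _ hle
  refine ⟨hle.trans hL₁.prop.1, ?_⟩
  calc L = ⁅L, L⁆ := hperf.symm
    _ ≤ ⁅L₁ ⊔ W, L₁ ⊔ W⁆ := commutator_mono hL₁.prop.2 hL₁.prop.2
    _ ≤ ⁅L₁, L₁⁆ ⊔ W := commutator_sup_le_of_le_normalizer (hL₁.prop.1.trans hDW)

/-- The commutator of `N_E(U)` with a group centralizing `U` lies in `C_E(U)`. -/
theorem commutator_normalizer_le_centralizer {E L U : Subgroup X} [hE : E.Normal]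
    (hLU : L ≤ centralizer (U : Set X)) :
    ⁅E ⊓ normalizer (U : Set X), L⁆ ≤ E ⊓ centralizer (U : Set X) := by
  rw [commutator_le]
  intro n hn l hl
  refine mem_inf.mpr ⟨?_, ?_⟩
  · rw [commutatorElement_def]
    have : n * l * n⁻¹ * l⁻¹ = n * (l * n⁻¹ * l⁻¹) := by group
    rw [this]
    exact mul_mem hn.1 (hE.conj_mem _ (inv_mem hn.1) l)
  · have h1 : n * l * n⁻¹ ∈ centralizer (U : Set X) :=
      (le_normalizer_iff.mp (Cfsg.Agent.Lib.Helper22.normalizer_le_normalizer_centralizer U))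
        n hn.2 l (hLU hl)
    rw [commutatorElement_def]
    exact mul_mem h1 (inv_mem (hLU hl))

theorem le_normalizer_inf_centralizer_of_normal {E L U : Subgroup X} [hE : E.Normal]
    (hLU : L ≤ normalizer (U : Set X)) :
    L ≤ normalizer ((E ⊓ centralizer (U : Set X) : Subgroup X) : Set X) :=
  le_normalizer_inf' (by rw [normalizer_eq_top_iff.mpr hE]; exact le_top)
    (hLU.trans (Cfsg.Agent.Lib.Helper22.normalizer_le_normalizer_centralizer U))

/-- If `U ≤ E` contains all `p`-elements of `C_E(U)` and the perfect group `L` centralizes `U`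
then `L` centralizes `N_E(U)` modulo `O_{p'}(C_E(U))`. -/
theorem commutator_normalizer_le_coreOf [Finite X] (p : ℕ) [Fact p.Prime] {E L U : Subgroup X}
    [hE : E.Normal] (hperf : ⁅L, L⁆ = L) (hLU : L ≤ centralizer (U : Set X))
    (h : ∀ x ∈ E ⊓ centralizer (U : Set X), (∃ k : ℕ, x ^ (p ^ k) = 1) → x ∈ U) :
    ⁅E ⊓ normalizer (U : Set X), L⁆ ≤ coreOf p (E ⊓ centralizer (U : Set X)) := by
  set A := E ⊓ centralizer (U : Set X) with hA
  have hLA : L ≤ normalizer (A : Set X) :=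
    le_normalizer_inf_centralizer_of_normal (hLU.trans (centralizer_le_normalizer _))
  have hNA : E ⊓ normalizer (U : Set X) ≤ normalizer (A : Set X) :=
    le_normalizer_inf_centralizer_of_normal inf_le_right
  have hcs : A ≤ (U ⊓ A) ⊔ coreOf p A := by
    apply le_sup_coreOf_of_central p
    · exact inf_le_right.trans (centralizer_le inf_le_left)
    · intro x hx hk
      exact ⟨h x hx hk, hx⟩
  have hAL : ⁅A, L⁆ ≤ coreOf p A := by
    refine (commutator_mono hcs le_rfl).trans ?_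
    apply Cfsg.Agent.Lib.Helper91.sup_commutator_le'
    · exact inf_le_right.trans (le_normalizer.trans (normalizer_le_normalizer_coreOf p A))
    · exact le_normalizer
    · have : ⁅U ⊓ A, L⁆ = ⊥ := by
        rw [commutator_comm, commutator_eq_bot_iff_le_centralizer]
        exact hLU.trans (centralizer_le inf_le_left)
      rw [this]; exact bot_le
    · exact le_normalizer_iff_commutator_le_left.mp
        (hLA.trans (normalizer_le_normalizer_coreOf p A))
  apply commutator_le_of_perfect_mod (hNA.trans (normalizer_le_normalizer_coreOf p A))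
    (hLA.trans (normalizer_le_normalizer_coreOf p A)) hperf
  exact (commutator_mono (commutator_normalizer_le_centralizer hLU) le_rfl).trans hAL

end Cfsg.Agent.Lib.Helper31
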