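import Cfsg.Agent.Lib.Helper31.L2Bal1
import Cfsg.Agent.Lib.Helper33.AlperinReduce

set_option autoImplicit false

/-! Isolation of a central `2`-element of a Sylow subgroup from local information. -/

namespace Cfsg.Agent.Lib.Helper31

open Subgroup
open scoped commutatorElement Pointwise
open Cfsg.Agent.Lib.Helper23 (coreOf coreOf_le le_coreOf card_coreOf_coprime
  normalizer_le_normalizer_coreOf le_normalizer_inf' commutator_le_of_perfect_mod
  eq_one_of_pow_coprime)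
open Cfsg.Agent.Lib.Helper33 (fullyNormalized RelSyl alperin_reduce fusionRel_good1
  exists_extension_of_not_centric Good1 exists_relSyl_ge lt_inf_normalizer mem_conj_smul)

theorem isPGroup_zpowers_of_pow {Y : Type*} [Group Y] {p k : ℕ} {a : Y} (h : a ^ (p ^ k) = 1) :
    IsPGroup p (zpowers a) := by
  rintro ⟨_, ⟨i, rfl⟩⟩
  refine ⟨k, Subtype.ext ?_⟩
  change (a ^ i) ^ (p ^ k) = 1
  rw [← zpow_natCast, ← zpow_mul, mul_comm, zpow_mul, zpow_natCast, h, one_zpow]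

theorem isolated_of_local {Y : Type*} [Group Y] [Finite Y] {p : ℕ} [Fact p.Prime] (S : Sylow p Y)
    (z : Y) (hz : z ∈ S)
    (h : ∀ U ∈ fullyNormalized p (S : Subgroup Y),
      (S : Subgroup Y) ⊓ centralizer (U : Set Y) ≤ U →
      ∀ x ∈ normalizer (U : Set Y), x ∈ centralizer ({z} : Set Y)) :
    ∀ g : Y, g * z * g⁻¹ ∈ S → g * z * g⁻¹ = z := by
  intro g hg
  have key : Good1 (centralizer ({z} : Set Y)) ({z} : Set Y) g := by
    refine alperin_reduce S (fusionRel_good1 (centralizer ({z} : Set Y)))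
      {U | (S : Subgroup Y) ⊓ centralizer (U : Set Y) ≤ U} 0 ?_ ?_ {z} g (by simp)
      (by simpa using hz) ?_
    · intro U hU hUF x hx
      exact exists_extension_of_not_centric S hU hUF hx
    · intro U hU hUF _ x hx
      exact ⟨x, h U hU hUF x hx, fun _ _ => rfl⟩
    · rintro _ ⟨a, rfl, rfl⟩
      exact hg
  obtain ⟨x, hx, hx'⟩ := key
  rw [← hx' z rfl]
  have : z * x = x * z := mem_centralizer_singleton_iff.mp hx |>.symm
  rw [← this]; group

section setup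

variable {Y : Type*} [Group Y] [Finite Y] {E Q : Subgroup Y} [hE : E.Normal] {z : Y}

theorem exists_sylow_of_setup (hdec : ∀ y : Y, ∃ e ∈ E, ∃ i : ℤ, y = e * z ^ i)
    (hz2 : ∃ k : ℕ, z ^ (2 ^ k) = 1) (hQE : Q ≤ E) (hQ2 : IsPGroup 2 Q)
    (hQmax : ∀ P : Subgroup Y, P ≤ E → IsPGroup 2 P → Q ≤ P → P ≤ Q)
    (hzQ : z ∈ centralizer (Q : Set Y)) :
    ∃ S : Sylow 2 Y, z ∈ S ∧ (S : Subgroup Y) ⊓ E = Q ∧
      (S : Subgroup Y) ≤ centralizer ({z} : Set Y) := by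
  obtain ⟨k, hk⟩ := hz2
  have h1 : IsPGroup 2 (Q ⊔ zpowers z : Subgroup Y) := by
    apply IsPGroup.to_sup_of_normal_left' hQ2 (isPGroup_zpowers_of_pow hk)
    rw [zpowers_le]
    exact centralizer_le_normalizer _ hzQ
  obtain ⟨S, hS⟩ := h1.exists_le_sylow
  have hzS : z ∈ S := hS (mem_sup_right (mem_zpowers z))
  have hSE : (S : Subgroup Y) ⊓ E = Q :=
    le_antisymm (hQmax _ inf_le_right (S.2.to_le inf_le_left) (le_inf (le_sup_left.trans hS) hQE))
      (le_inf (le_sup_left.trans hS) hQE)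
  refine ⟨S, hzS, hSE, ?_⟩
  intro s hs
  obtain ⟨e, he, i, rfl⟩ := hdec s
  have heS : e ∈ (S : Subgroup Y) := by
    have := mul_mem hs (zpow_mem hzS (-i))
    rwa [mul_assoc, ← zpow_add, add_neg_cancel, zpow_zero, mul_one] at this
  have heQ : e ∈ Q := hSE ▸ mem_inf.mpr ⟨heS, he⟩
  have hc : Commute e z := mem_centralizer_iff.mp hzQ e heQ
  rw [mem_centralizer_singleton_iff]
  exact ((hc.mul_left ((Commute.refl z).zpow_left i))).eq

theorem local_commute (hdec : ∀ y : Y, ∃ e ∈ E, ∃ i : ℤ, y = e * z ^ i)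
    (S : Sylow 2 Y) (hzS : z ∈ S) (hSE : (S : Subgroup Y) ⊓ E = Q)
    (hSz : (S : Subgroup Y) ≤ centralizer ({z} : Set Y))
    (H : ∀ U : Subgroup Y, U ≤ Q →
      (∀ x ∈ E ⊓ centralizer (U : Set Y), (∃ k : ℕ, x ^ (2 ^ k) = 1) → x ∈ U) →
      ∀ n ∈ E ⊓ normalizer (U : Set Y), ∃ m : ℕ, Odd m ∧ ⁅n, z⁆ ^ m = 1)
    {U : Subgroup Y} (hU : U ∈ fullyNormalized 2 (S : Subgroup Y))
    (hc : (S : Subgroup Y) ⊓ centralizer (U : Set Y) ≤ U) {x : Y}
    (hx : x ∈ normalizer (U : Set Y)) : x ∈ centralizer ({z} : Set Y) := by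
  have hcomm : ∀ s ∈ (S : Subgroup Y), Commute s z := fun s hs =>
    (mem_centralizer_singleton_iff.mp (hSz hs))
  have hzU : z ∈ U := by
    apply hc
    refine mem_inf.mpr ⟨hzS, ?_⟩
    rw [mem_centralizer_iff]
    intro u hu
    exact (hcomm u (hU.1 hu)).eq
  have hU2 : IsPGroup 2 U := S.2.to_le hU.1
  set U₀ := U ⊓ E with hU₀
  have hU₀Q : U₀ ≤ Q := hSE ▸ inf_le_inf hU.1 le_rfl
  have hEtop : normalizer (E : Set Y) = ⊤ := normalizer_eq_top_iff.mpr hE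
  have hUdec : ∀ u ∈ U, ∃ q ∈ U₀, ∃ i : ℤ, u = q * z ^ i := by
    intro u hu
    obtain ⟨e, he, i, rfl⟩ := hdec u
    refine ⟨e, mem_inf.mpr ⟨?_, he⟩, i, rfl⟩
    have := mul_mem hu (zpow_mem hzU (-i))
    rwa [mul_assoc, ← zpow_add, add_neg_cancel, zpow_zero, mul_one] at this
  have hNU₀ : normalizer (U : Set Y) ≤ normalizer (U₀ : Set Y) :=
    le_normalizer_inf' le_rfl (by rw [hEtop]; exact le_top)
  set A := E ⊓ centralizer (U₀ : Set Y) with hA
  have hNA : normalizer (U : Set Y) ≤ normalizer (A : Set Y) :=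
    le_normalizer_inf_centralizer_of_normal hNU₀
  -- `2`-elements of `A ∩ N(U)` lie in `U`
  have hM : ∀ a ∈ A, a ∈ normalizer (U : Set Y) → (∃ k : ℕ, a ^ (2 ^ k) = 1) → a ∈ U := by
    rintro a haA haN ⟨k, hk⟩
    obtain ⟨g, hg, hle⟩ := hU.2.exists_conj_le (Q := zpowers a) (by rwa [zpowers_le])
      (isPGroup_zpowers_of_pow hk)
    have h1 : g * a * g⁻¹ ∈ (S : Subgroup Y) ⊓ normalizer (U : Set Y) :=
      hle ⟨a, mem_zpowers a, rfl⟩
    have h2 : g * a * g⁻¹ ∈ A := (le_normalizer_iff.mp hNA) g hg a haA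
    have h3 : g * a * g⁻¹ ∈ U := by
      apply hc
      refine mem_inf.mpr ⟨h1.1, ?_⟩
      rw [mem_centralizer_iff]
      intro u hu
      obtain ⟨q, hq, i, rfl⟩ := hUdec u hu
      have c1 : Commute q (g * a * g⁻¹) := mem_centralizer_iff.mp h2.2 q hq
      have c2 : Commute z (g * a * g⁻¹) := (hcomm _ h1.1).symm
      exact (c1.mul_left (c2.zpow_left i)).eq
    have h4 := (le_normalizer_iff.mp (le_refl (normalizer (U : Set Y)))) g⁻¹ (inv_mem hg) _ h3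
    have e : g⁻¹ * (g * a * g⁻¹) * g⁻¹⁻¹ = a := by group
    rwa [e] at h4
  have hUA : U ≤ normalizer (A : Set Y) := le_normalizer.trans hNA
  obtain ⟨T, hT, hUT⟩ := exists_relSyl_ge (p := 2) (le_sup_right : U ≤ A ⊔ U) hU2
  have hTU : T = U := by
    by_contra hne
    have hlt : U < T := lt_of_le_of_ne hUT (Ne.symm hne)
    have hlt2 := lt_inf_normalizer hT.2.1 hlt
    obtain ⟨t, ht, htU⟩ := SetLike.exists_of_lt hlt2
    obtain ⟨a, ha, u, hu, rfl⟩ :=
      (Cfsg.Agent.Lib.Helper22.mem_sup_of_le_normalizer hUA).mp (hT.1 ht.1)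
    have haT : a ∈ T ⊓ normalizer (U : Set Y) := by
      have := mul_mem ht (inv_mem (mem_inf.mpr ⟨hUT hu, le_normalizer hu⟩))
      rwa [mul_inv_cancel_right] at this
    obtain ⟨k, hk⟩ := hT.2.1 ⟨a, haT.1⟩
    exact htU (mul_mem (hM a ha haT.2 ⟨k, congrArg Subtype.val hk⟩) hu)
  rw [hTU] at hT
  have hAUn : A ⊔ U ≤ normalizer (U₀ : Set Y) :=
    sup_le (inf_le_right.trans (centralizer_le_normalizer _)) (le_normalizer.trans hNU₀)
  have c1 : ∀ x ∈ E ⊓ centralizer (U₀ : Set Y), (∃ k : ℕ, x ^ (2 ^ k) = 1) → x ∈ U₀ := by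
    rintro a haA ⟨k, hk⟩
    obtain ⟨g, hg, hle⟩ := hT.exists_conj_le (Q := zpowers a)
      (by rw [zpowers_le]; exact mem_sup_left haA) (isPGroup_zpowers_of_pow hk)
    have h1 : g * a * g⁻¹ ∈ U := hle ⟨a, mem_zpowers a, rfl⟩
    have h3 : g * a * g⁻¹ ∈ U₀ := mem_inf.mpr ⟨h1, hE.conj_mem _ haA.1 g⟩
    have h4 := (le_normalizer_iff.mp hAUn) g⁻¹ (inv_mem hg) _ h3
    have e : g⁻¹ * (g * a * g⁻¹) * g⁻¹⁻¹ = a := by group
    rwa [e] at h4
  obtain ⟨e, he, i, rfl⟩ := hdec x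
  have heN : e ∈ normalizer (U : Set Y) := by
    have := mul_mem hx (zpow_mem (le_normalizer hzU) (-i))
    rwa [mul_assoc, ← zpow_add, add_neg_cancel, zpow_zero, mul_one] at this
  obtain ⟨m, hm, hm1⟩ := H U₀ hU₀Q c1 e (mem_inf.mpr ⟨he, hNU₀ heN⟩)
  have h5 : ⁅e, z⁆ ∈ U := by
    rw [commutatorElement_def]
    exact mul_mem ((le_normalizer_iff.mp (le_refl (normalizer (U : Set Y)))) e heN z hzU)
      (inv_mem hzU)
  obtain ⟨k, hk⟩ := hU2 ⟨_, h5⟩
  have hk' : ⁅e, z⁆ ^ (2 ^ k) = 1 := congrArg Subtype.val hk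
  have h6 : ⁅e, z⁆ = 1 :=
    eq_one_of_pow_coprime ((Nat.coprime_two_right.mpr hm).pow_right k) hm1 hk'
  have h7 : Commute e z := commutatorElement_eq_one_iff_commute.mp h6
  rw [mem_centralizer_singleton_iff]
  exact (h7.mul_left ((Commute.refl z).zpow_left i)).eq

end setup

end Cfsg.Agent.Lib.Helper31
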