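import Cfsg.Agent.Lib.Helper31.L2Bal2

set_option autoImplicit false

/-! Application of the `Z*`-theorem: a `2`-element centralizing a Sylow `2`-subgroup of `E` and
locally acting with odd order commutators centralizes `E`. -/

namespace Cfsg.Agent.Lib.Helper31

open Subgroup
open scoped commutatorElement Pointwise
open Cfsg.Agent.Lib.Helper23 (coreOf coreOf_le le_coreOf card_coreOf_coprime
  normalizer_le_normalizer_coreOf le_normalizer_inf' commutator_le_of_perfect_mod
  eq_one_of_pow_coprime commutatorElement_mul_of_commute)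

universe u

/-- The statement of Glauberman's `Z*`-theorem, in a fixed universe. -/
def ZStarStatement : Prop :=
  ∀ (G : Type u) [Group G] [Finite G] (P : Sylow 2 G) (u : G), orderOf u = 2 → u ∈ P →
    (∀ g : G, g * u * g⁻¹ ∈ P → g * u * g⁻¹ = u) →
    ∃ N : Subgroup G, N.Normal ∧ Odd (Nat.card N) ∧ ∀ g : G, (u * g * u⁻¹ * g⁻¹) ∈ N

theorem normal_of_le_center_aux {Y : Type*} [Group Y] {H : Subgroup Y} (h : H ≤ center Y) :
    H.Normal := by
  constructor
  intro n hn g
  have : g * n * g⁻¹ = n := by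
    rw [(mem_center_iff.mp (h hn) g)]; group
  rwa [this]

theorem central_of_setup {Y : Type u} [Group Y] [Finite Y] (hZ : ZStarStatement.{u})
    {E Q : Subgroup Y} [hE : E.Normal] {z : Y} (hperf : ⁅E, E⁆ = E)
    (hO : ∀ V : Subgroup Y, V.Normal → V ≤ E → (Nat.card V).Coprime 2 → V = ⊥)
    (hdec : ∀ y : Y, ∃ e ∈ E, ∃ i : ℤ, y = e * z ^ i)
    (hz2 : ∃ k : ℕ, z ^ (2 ^ k) = 1) (hzz : z ^ 2 ∈ centralizer (E : Set Y))
    (hQE : Q ≤ E) (hQ2 : IsPGroup 2 Q)
    (hQmax : ∀ P : Subgroup Y, P ≤ E → IsPGroup 2 P → Q ≤ P → P ≤ Q)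
    (hzQ : z ∈ centralizer (Q : Set Y))
    (H : ∀ U : Subgroup Y, U ≤ Q →
      (∀ x ∈ E ⊓ centralizer (U : Set Y), (∃ k : ℕ, x ^ (2 ^ k) = 1) → x ∈ U) →
      ∀ n ∈ E ⊓ normalizer (U : Set Y), ∃ m : ℕ, Odd m ∧ ⁅n, z⁆ ^ m = 1) :
    z ∈ centralizer (E : Set Y) := by
  obtain ⟨S, hzS, hSE, hSz⟩ := exists_sylow_of_setup hdec hz2 hQE hQ2 hQmax hzQ
  have hiso := isolated_of_local S z hzS
    (fun U hU hc x hx => local_commute hdec S hzS hSE hSz H hU hc hx)
  have hcen : z ^ 2 ∈ center Y := by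
    rw [mem_center_iff]
    intro y
    obtain ⟨e, he, i, rfl⟩ := hdec y
    have c1 : Commute e (z ^ 2) := mem_centralizer_iff.mp hzz e he
    have c2 : Commute (z ^ i) (z ^ 2) := ((Commute.refl z).zpow_left i).pow_right 2
    exact (c1.mul_left c2).eq
  set Z₂ := zpowers (z ^ 2) with hZ₂
  have hZ₂c : Z₂ ≤ center Y := by rw [hZ₂, zpowers_le]; exact hcen
  have hcenE : center Y ≤ centralizer (E : Set Y) := center_le_centralizer _
  by_cases hzZ : z ∈ Z₂
  · exact hcenE (hZ₂c hzZ)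
  have hZ₂n : Z₂.Normal := normal_of_le_center_aux hZ₂c
  set π := QuotientGroup.mk' Z₂ with hπ
  have hπs : Function.Surjective π := QuotientGroup.mk'_surjective Z₂
  have hord : orderOf (π z) = 2 := by
    apply orderOf_eq_prime
    · rw [← map_pow]
      exact (QuotientGroup.eq_one_iff _).2 (mem_zpowers _)
    · intro h
      exact hzZ ((QuotientGroup.eq_one_iff _).1 h)
  have hZ₂S : Z₂ ≤ (S : Subgroup Y) := by
    rw [hZ₂, zpowers_le]; exact pow_mem hzS 2
  obtain ⟨N, hN, hNodd, hNc⟩ := hZ (Y ⧸ Z₂) (S.mapSurjective hπs) (π z) hord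
    ⟨z, hzS, rfl⟩ (by
      intro g hg
      obtain ⟨g, rfl⟩ := hπs g
      obtain ⟨s, hs, hs'⟩ := hg
      have h1 : s⁻¹ * (g * z * g⁻¹) ∈ Z₂ := by
        rw [← QuotientGroup.eq]
        have : π s = π (g * z * g⁻¹) := by rw [hs']; simp
        exact this
      have h2 : g * z * g⁻¹ ∈ S := by
        have := mul_mem hs (hZ₂S h1)
        rwa [mul_inv_cancel_left] at this
      have h3 := hiso g h2
      rw [← map_inv, ← map_mul, ← map_mul, h3])
  set V := N.comap π with hV
  have hVn : V.Normal := hN.comap π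
  have hVtop : normalizer (V : Set Y) = ⊤ := normalizer_eq_top_iff.mpr hVn
  have hcs : V ≤ Z₂ ⊔ coreOf 2 V := by
    apply le_sup_coreOf_of_central 2
    · exact le_top.trans (by
        rw [top_le_iff, centralizer_eq_top_iff_subset]
        exact hZ₂c)
    · rintro x hx ⟨k, hk⟩
      have h1 : π x ^ Nat.card N = 1 := by
        have := pow_card_eq_one' (x := (⟨π x, hx⟩ : N))
        exact congrArg Subtype.val this
      have h2 : π x ^ (2 ^ k) = 1 := by rw [← map_pow, hk, map_one]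
      have h3 : π x = 1 :=
        eq_one_of_pow_coprime ((Nat.coprime_two_right.mpr hNodd).pow_right k) h1 h2
      exact (QuotientGroup.eq_one_iff _).1 h3
  have hKn : (coreOf 2 V).Normal := by
    rw [← normalizer_eq_top_iff, ← top_le_iff, ← hVtop]
    exact normalizer_le_normalizer_coreOf 2 V
  have hKE : coreOf 2 V ≤ E := by
    intro x hx
    obtain ⟨k, hk⟩ := hz2
    have h1 : x ^ Nat.card (coreOf 2 V) = 1 := by
      have := pow_card_eq_one' (x := (⟨x, hx⟩ : coreOf 2 V))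
      exact congrArg Subtype.val this
    obtain ⟨e, he, i, rfl⟩ := hdec x
    have h2 : QuotientGroup.mk' E (e * z ^ i) = (QuotientGroup.mk' E z) ^ i := by
      have h0 : QuotientGroup.mk' E e = 1 := (QuotientGroup.eq_one_iff e).2 he
      rw [map_mul, map_zpow, h0, one_mul]
    have h3 : QuotientGroup.mk' E (e * z ^ i) ^ (2 ^ k) = 1 := by
      rw [h2, ← zpow_natCast, ← zpow_mul, mul_comm, zpow_mul, zpow_natCast, ← map_pow, hk, map_one,
        one_zpow]
    have h4 : QuotientGroup.mk' E (e * z ^ i) ^ Nat.card (coreOf 2 V) = 1 := by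
      rw [← map_pow, h1, map_one]
    have h5 := eq_one_of_pow_coprime ((card_coreOf_coprime 2 V).pow_right k) h4 h3
    exact (QuotientGroup.eq_one_iff _).1 h5
  have hK : coreOf 2 V = ⊥ := hO _ hKn hKE (card_coreOf_coprime 2 V)
  rw [hK, sup_bot_eq] at hcs
  have hc : ∀ g : Y, z * g * z⁻¹ * g⁻¹ ∈ center Y := by
    intro g
    apply hZ₂c
    apply hcs
    have := hNc (π g)
    rw [hV, mem_comap]
    simpa using this
  have hmain : ⁅E, E⁆ ≤ centralizer ({z} : Set Y) := by
    rw [commutator_le]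
    intro a _ b _
    have ha := mem_center_iff.mp (hc a)
    have hb := mem_center_iff.mp (hc b)
    have e1 : z * ⁅a, b⁆ * z⁻¹ = ⁅a * (z * a * z⁻¹ * a⁻¹), b * (z * b * z⁻¹ * b⁻¹)⁆ := by
      rw [ha a, hb b]
      simp only [commutatorElement_def]; group
    have e2 : ⁅a * (z * a * z⁻¹ * a⁻¹), b * (z * b * z⁻¹ * b⁻¹)⁆ = ⁅a, b⁆ :=
      commutatorElement_mul_of_commute (ha a).symm (ha b).symm (hb a).symm (hb b).symm (hb _)
    rw [e2] at e1
    rw [mem_centralizer_singleton_iff]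
    calc ⁅a, b⁆ * z = z * ⁅a, b⁆ * z⁻¹ * z := by rw [e1]
      _ = z * ⁅a, b⁆ := by group
  rw [hperf] at hmain
  rw [mem_centralizer_iff]
  intro e he
  exact mem_centralizer_singleton_iff.mp (hmain he)

end Cfsg.Agent.Lib.Helper31
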