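import Cfsg.Agent.Lib.Helper31.L2Bal3
import Cfsg.Agent.Lib.Helper33.TransferInj

set_option autoImplicit false

/-! A perfect group centralizing a Sylow `2`-subgroup of `E`: its `2`-elements centralize `E`. -/

namespace Cfsg.Agent.Lib.Helper31

open Subgroup
open scoped commutatorElement Pointwise
open Cfsg.Agent.Lib.Helper23 (coreOf coreOf_le le_coreOf card_coreOf_coprime
  normalizer_le_normalizer_coreOf le_normalizer_inf' commutator_le_of_perfect_mod
  eq_one_of_pow_coprime subgroupOf_commutator)
open Cfsg.Agent.Lib.Helper33 (RelSyl isPGroup_subgroupOf mem_normalizer_map_iff)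

universe u

theorem mem_centralizer_map_subtype_iff {X : Type*} [Group X] {H : Subgroup X} (U : Subgroup ↥H)
    (x : ↥H) : (x : X) ∈ centralizer ((U.map H.subtype : Subgroup X) : Set X) ↔
      x ∈ centralizer (U : Set ↥H) := by
  rw [mem_centralizer_iff, mem_centralizer_iff]
  constructor
  · intro h u hu
    exact Subtype.ext (h u ⟨u, hu, rfl⟩)
  · rintro h _ ⟨u, hu, rfl⟩
    exact congrArg Subtype.val (h u hu)

theorem mem_centralizer_of_sylow {X : Type u} [Group X] [Finite X] (hZ : ZStarStatement.{u})
    {E Q L : Subgroup X} [hE : E.Normal] (hEperf : ⁅E, E⁆ = E)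
    (hO : ∀ V : Subgroup X, V ≤ E → E ≤ normalizer (V : Set X) → (Nat.card V).Coprime 2 → V = ⊥)
    (hQ : RelSyl 2 Q E) (hperf : ⁅L, L⁆ = L) (hLQ : L ≤ centralizer (Q : Set X)) :
    ∀ (k : ℕ) (z : X), z ∈ L → z ^ (2 ^ k) = 1 → z ∈ centralizer (E : Set X) := by
  intro k
  induction k with
  | zero =>
    intro z _ hz
    rw [pow_zero, pow_one] at hz
    rw [hz]; exact one_mem _
  | succ k ih =>
    intro z hzL hzk
    have hzz : z ^ 2 ∈ centralizer (E : Set X) := by
      apply ih _ (pow_mem hzL 2)
      rw [← pow_mul, ← pow_succ']; exact hzk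
    set H := E ⊔ zpowers z with hH
    have hEH : E ≤ H := le_sup_left
    have hzH : z ∈ H := mem_sup_right (mem_zpowers z)
    have hinj : Function.Injective H.subtype := H.subtype_injective
    have key : (⟨z, hzH⟩ : ↥H) ∈ centralizer ((E.subgroupOf H : Subgroup ↥H) : Set ↥H) := by
      apply central_of_setup hZ (Q := Q.subgroupOf H)
      · rw [← subgroupOf_commutator hEH hEH, hEperf]
      · intro V hVn hVE hVc
        have h1 : V.map H.subtype = ⊥ := by
          apply hO
          · rintro _ ⟨v, hv, rfl⟩
            exact hVE hv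
          · rw [le_normalizer_iff]
            rintro e he _ ⟨v, hv, rfl⟩
            exact ⟨⟨e, hEH he⟩ * v * ⟨e, hEH he⟩⁻¹, hVn.conj_mem v hv _, rfl⟩
          · rwa [card_map_of_injective hinj]
        exact (map_eq_bot_iff_of_injective _ hinj).mp h1
      · intro y
        obtain ⟨e, he, h, ⟨i, rfl⟩, hy⟩ := mem_sup_of_normal_left.mp y.2
        refine ⟨⟨e, hEH he⟩, he, i, Subtype.ext ?_⟩
        rw [← hy]
        simp
      · exact ⟨k + 1, Subtype.ext hzk⟩
      · rw [mem_centralizer_iff]
        intro e he
        exact Subtype.ext (mem_centralizer_iff.mp hzz e he)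
      · exact comap_mono hQ.1
      · exact isPGroup_subgroupOf hQ.2.1 H
      · intro P hPE hP2 hQP x hx
        have h1 : Q = P.map H.subtype := by
          apply hQ.eq_of_le
          · rintro _ ⟨v, hv, rfl⟩
            exact hPE hv
          · exact hP2.map _
          · intro q hq
            exact ⟨⟨q, hEH (hQ.1 hq)⟩, hQP hq, rfl⟩
        rw [mem_subgroupOf, h1]
        exact ⟨x, hx, rfl⟩
      · rw [mem_centralizer_iff]
        intro q hq
        exact Subtype.ext (mem_centralizer_iff.mp (hLQ hzL) q hq)
      · intro U hUQ hU n hn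
        have hUQ' : U.map H.subtype ≤ Q := by
          rintro _ ⟨v, hv, rfl⟩
          exact hUQ hv
        have h1 := commutator_normalizer_le_coreOf 2 (E := E) (U := U.map H.subtype) hperf
          (hLQ.trans (centralizer_le hUQ')) (by
            intro x hx hk
            have hxU : (⟨x, hEH hx.1⟩ : ↥H) ∈ U := by
              apply hU
              · exact mem_inf.mpr ⟨hx.1, (mem_centralizer_map_subtype_iff U ⟨x, hEH hx.1⟩).mp hx.2⟩
              · obtain ⟨j, hj⟩ := hk
                exact ⟨j, Subtype.ext hj⟩
            exact ⟨_, hxU, rfl⟩)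
        have h2 : ⁅(n : X), z⁆ ∈ coreOf 2 (E ⊓ centralizer ((U.map H.subtype : Subgroup X) : Set X)) := by
          apply h1
          apply commutator_mem_commutator _ hzL
          exact mem_inf.mpr ⟨hn.1, (mem_normalizer_map_iff hinj U n).mpr hn.2⟩
        refine ⟨_, Nat.coprime_two_right.mp (card_coreOf_coprime 2
          (E ⊓ centralizer ((U.map H.subtype : Subgroup X) : Set X))), Subtype.ext ?_⟩
        have := pow_card_eq_one' (x := (⟨_, h2⟩ :
          coreOf 2 (E ⊓ centralizer ((U.map H.subtype : Subgroup X) : Set X))))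
        have h3 : ⁅(n : X), z⁆ ^ Nat.card
            (coreOf 2 (E ⊓ centralizer ((U.map H.subtype : Subgroup X) : Set X))) = 1 :=
          congrArg Subtype.val this
        exact h3
    rw [mem_centralizer_iff] at key ⊢
    intro e he
    exact congrArg Subtype.val (key ⟨e, hEH he⟩ he)

end Cfsg.Agent.Lib.Helper31
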