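import Cfsg.Agent.Lib.Helper31.L2Bal4
import Cfsg.Agent.Lib.Helper33.Frattini

set_option autoImplicit false

/-! Enlarging the `2`-group `R` until it contains a Sylow `2`-subgroup of `E`. -/

namespace Cfsg.Agent.Lib.Helper31

open Subgroup
open scoped commutatorElement Pointwise
open Cfsg.Agent.Lib.Helper23 (coreOf coreOf_le le_coreOf card_coreOf_coprime
  normalizer_le_normalizer_coreOf le_normalizer_inf' commutator_le_of_perfect_mod
  eq_one_of_pow_coprime subgroupOf_commutator)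
open Cfsg.Agent.Lib.Helper33 (RelSyl isPGroup_subgroupOf mem_normalizer_map_iff exists_relSyl
  relSyl_inf_normal' lt_inf_normalizer isPGroup_conj_smul eq_of_le_of_card_le
  inf_eq_bot_of_isPGroup_of_coprime)

universe u

theorem relSyl_of_relSyl_normalizer {X : Type*} [Group X] [Finite X] {p : ℕ} [Fact p.Prime]
    {E R Q : Subgroup X} [hE : E.Normal] (hR : IsPGroup p R)
    (hQ : RelSyl p Q (E ⊓ normalizer (R : Set X))) (hQR : Q ≤ R) : RelSyl p Q E := by
  obtain ⟨S, hS⟩ := hR.exists_le_sylow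
  have hP := relSyl_inf_normal' S E
  set P := (S : Subgroup X) ⊓ E with hPdef
  have hRP : R ≤ normalizer (P : Set X) :=
    le_normalizer_inf' (hS.trans le_normalizer) (by rw [normalizer_eq_top_iff.mpr hE]; exact le_top)
  have hPR : P ≤ R := by
    by_contra hne
    have hlt : R < P ⊔ R := lt_of_le_of_ne le_sup_right (fun h => hne (h ▸ le_sup_left))
    have hT : IsPGroup p (P ⊔ R : Subgroup X) := S.2.to_le (sup_le inf_le_left hS)
    obtain ⟨t, ht, htR⟩ := SetLike.exists_of_lt (lt_inf_normalizer hT hlt)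
    obtain ⟨x, hx, r, hr, rfl⟩ :=
      (Cfsg.Agent.Lib.Helper22.mem_sup_of_le_normalizer hRP).mp ht.1
    have hxN : x ∈ normalizer (R : Set X) := by
      have := mul_mem (mem_inf.mp ht).2 (inv_mem (le_normalizer hr))
      rwa [mul_inv_cancel_right] at this
    obtain ⟨k, hk⟩ := hP.2.1 ⟨x, hx⟩
    have hk' : x ^ (p ^ k) = 1 := congrArg Subtype.val hk
    obtain ⟨g, hg, hle⟩ := hQ.exists_conj_le (Q := zpowers x)
      (by rw [zpowers_le]; exact mem_inf.mpr ⟨hx.2, hxN⟩) (isPGroup_zpowers_of_pow hk')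
    have h1 : g * x * g⁻¹ ∈ R := hQR (hle ⟨x, mem_zpowers x, rfl⟩)
    have h4 := (le_normalizer_iff.mp (le_refl (normalizer (R : Set X)))) g⁻¹ (inv_mem hg.2) _ h1
    have e : g⁻¹ * (g * x * g⁻¹) * g⁻¹⁻¹ = x := by group
    rw [e] at h4
    exact htR (mul_mem h4 hr)
  apply hP.of_card_le (hQ.1.trans inf_le_left) hQ.2.1
  exact hQ.card_le (le_inf inf_le_right (hPR.trans le_normalizer)) hP.2.1

/-- The covering step: `L ≤ C_{LW}(Q) W`. -/
theorem exists_mul_mem_centralizer_of_relSyl {X : Type*} [Group X] [Finite X] {p : ℕ}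
    [Fact p.Prime] {M Q L W : Subgroup X} (hQ : RelSyl p Q M) (hWM : W ≤ M)
    (hWp : (Nat.card W).Coprime p) (hMW : M ≤ normalizer (W : Set X)) (hML : ⁅M, L⁆ ≤ W)
    {g : X} (hg : g ∈ L) : ∃ w ∈ W, w * g ∈ centralizer (Q : Set X) := by
  have hQW : Q ≤ normalizer (W : Set X) := hQ.1.trans hMW
  have hn : ∀ a ∈ normalizer (W : Set X), ∀ r ∈ W, a * r * a⁻¹ ∈ W :=
    (le_normalizer_iff (H := normalizer (W : Set X)) (K := W)).1 le_rfl
  have hgq : ∀ q ∈ Q, ⁅g, q⁆ ∈ W := by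
    intro q hq
    rw [← commutatorElement_inv]
    exact inv_mem (hML (commutator_mem_commutator (hQ.1 hq) hg))
  have hg1 : MulAut.conj g • Q ≤ W ⊔ Q := by
    rintro _ ⟨q, hq, rfl⟩
    have e : (MulAut.conj g) q = ⁅g, q⁆ * q := by
      rw [MulAut.conj_apply, commutatorElement_def]; group
    change (MulAut.conj g) q ∈ _
    rw [e]
    exact mul_mem (mem_sup_left (hgq q hq)) (mem_sup_right hq)
  have hQWQ : RelSyl p Q (W ⊔ Q) := hQ.mono le_sup_right (sup_le hWM hQ.1)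
  obtain ⟨x, hx, hle⟩ := hQWQ.exists_conj_le hg1 (isPGroup_conj_smul hQ.2.1 g)
  obtain ⟨w', hw', q', hq', hx'⟩ :=
    (Cfsg.Agent.Lib.Helper22.mem_sup_of_le_normalizer hQW).mp (inv_mem hx)
  have hxe : x = q'⁻¹ * w'⁻¹ := by
    rw [← mul_inv_rev, hx', inv_inv]
  refine ⟨w'⁻¹, inv_mem hw', ?_⟩
  have hWQ : Q ⊓ W = ⊥ := inf_eq_bot_of_isPGroup_of_coprime hQ.2.1 hWp
  rw [mem_centralizer_iff]
  intro q hq
  have h1 : x * (g * q * g⁻¹) * x⁻¹ ∈ Q := hle ⟨g * q * g⁻¹, ⟨q, hq, rfl⟩, rfl⟩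
  have h2 : (w'⁻¹ * g) * q * (w'⁻¹ * g)⁻¹ ∈ Q := by
    have := mul_mem (mul_mem hq' h1) (inv_mem hq')
    rw [hxe] at this
    have e : q' * (q'⁻¹ * w'⁻¹ * (g * q * g⁻¹) * (q'⁻¹ * w'⁻¹)⁻¹) * q'⁻¹ =
        (w'⁻¹ * g) * q * (w'⁻¹ * g)⁻¹ := by group
    rwa [e] at this
  have h3 : ⁅w'⁻¹ * g, q⁆ ∈ Q := by
    rw [commutatorElement_def]
    exact mul_mem h2 (inv_mem hq)
  have h4 : ⁅w'⁻¹ * g, q⁆ ∈ W := by
    have e : ⁅w'⁻¹ * g, q⁆ = w'⁻¹ * ⁅g, q⁆ * (q * w'⁻¹⁻¹ * q⁻¹) := by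
      simp only [commutatorElement_def]; group
    rw [e]
    exact mul_mem (mul_mem (inv_mem hw') (hgq q hq)) (hn q (hQW hq) _ (inv_mem (inv_mem hw')))
  have h5 : ⁅w'⁻¹ * g, q⁆ ∈ Q ⊓ W := mem_inf.mpr ⟨h3, h4⟩
  rw [hWQ, mem_bot] at h5
  exact (commutatorElement_eq_one_iff_commute.mp h5).symm.eq

theorem two_elements_mem {X : Type u} [Group X] [Finite X] (hZ : ZStarStatement.{u})
    {E C : Subgroup X} [hE : E.Normal] [hC : C.Normal] (hEperf : ⁅E, E⁆ = E)
    (hO : ∀ V : Subgroup X, V ≤ E → E ≤ normalizer (V : Set X) → (Nat.card V).Coprime 2 → V = ⊥)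
    (hEC : E ≤ C) (hCC : centralizer (E : Set X) ≤ C) :
    ∀ (n : ℕ) (R L W : Subgroup X), Nat.card X - Nat.card R = n → IsPGroup 2 R → ⁅L, L⁆ = L →
      L ≤ centralizer (R : Set X) → W ≤ E ⊓ centralizer (R : Set X) → (Nat.card W).Coprime 2 →
      L ≤ normalizer (W : Set X) → E ⊓ normalizer (R : Set X) ≤ normalizer (W : Set X) →
      ⁅E ⊓ normalizer (R : Set X), L⁆ ≤ W → ∀ y ∈ L, (∃ k : ℕ, y ^ (2 ^ k) = 1) → y ∈ C := by
  intro n
  induction n using Nat.strong_induction_on with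
  | _ n ih =>
  intro R L W hn hR hperf hLR hWE hWp hLW hNW hNL y hy hyk
  obtain ⟨Q, hQ⟩ := exists_relSyl (p := 2) (E ⊓ normalizer (R : Set X))
  by_cases hQR : Q ≤ R
  · obtain ⟨k, hk⟩ := hyk
    exact hCC (mem_centralizer_of_sylow hZ hEperf hO (relSyl_of_relSyl_normalizer hR hQ hQR) hperf
      (hLR.trans (centralizer_le hQR)) k y hy hk)
  set M := E ⊓ normalizer (R : Set X) with hM
  have hWM : W ≤ M := hWE.trans (inf_le_inf_left _ (centralizer_le_normalizer _))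
  have hLWn : L ⊔ W ≤ normalizer (W : Set X) := sup_le hLW le_normalizer
  set D := (L ⊔ W) ⊓ centralizer (Q : Set X) with hD
  have hLD : L ≤ D ⊔ W := by
    intro g hg
    obtain ⟨w, hw, hwg⟩ := exists_mul_mem_centralizer_of_relSyl hQ hWM hWp hNW hNL hg
    have e : g = (w * g) * (g⁻¹ * w⁻¹ * g⁻¹⁻¹) := by group
    rw [e]
    refine mul_mem (mem_sup_left (mem_inf.mpr ⟨mul_mem (mem_sup_right hw) (mem_sup_left hg), hwg⟩))
      (mem_sup_right ?_)
    exact (le_normalizer_iff.mp hLW) g⁻¹ (inv_mem hg) _ (inv_mem hw)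
  obtain ⟨L₁, hL₁D, hL₁perf, hLL₁⟩ := exists_perfect_le_sup hperf (inf_le_left.trans hLWn) hLD
  set R₁ := R ⊔ Q with hR₁
  have hR₁p : IsPGroup 2 R₁ := IsPGroup.to_sup_of_normal_left' hR hQ.2.1 (hQ.1.trans inf_le_right)
  have hcard : Nat.card R < Nat.card R₁ := by
    by_contra hle
    push Not at hle
    have := eq_of_le_of_card_le (le_sup_left : R ≤ R₁) hle
    exact hQR (this ▸ le_sup_right)
  have hcard2 : Nat.card R₁ ≤ Nat.card X := Subgroup.card_le_card_group R₁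
  have hL₁LW : L₁ ≤ L ⊔ W := hL₁D.trans inf_le_left
  have hL₁R₁ : L₁ ≤ centralizer (R₁ : Set X) := by
    rw [le_centralizer_iff]
    apply sup_le
    · rw [le_centralizer_iff]
      exact hL₁LW.trans (sup_le hLR (hWE.trans inf_le_right))
    · rw [le_centralizer_iff]
      exact hL₁D.trans inf_le_right
  set A₁ := E ⊓ centralizer (R₁ : Set X) with hA₁
  have hL₁A₁ : L₁ ≤ normalizer (A₁ : Set X) :=
    le_normalizer_inf_centralizer_of_normal (hL₁R₁.trans (centralizer_le_normalizer _))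
  have hNA₁ : E ⊓ normalizer (R₁ : Set X) ≤ normalizer (A₁ : Set X) :=
    le_normalizer_inf_centralizer_of_normal inf_le_right
  have hA₁M : A₁ ≤ M :=
    inf_le_inf_left _ ((centralizer_le (le_sup_left : R ≤ R₁)).trans
      (centralizer_le_normalizer _))
  have hMLW : ⁅M, L ⊔ W⁆ ≤ W := by
    rw [commutator_comm]
    apply Cfsg.Agent.Lib.Helper91.sup_commutator_le' hLW le_normalizer
    · rw [commutator_comm]; exact hNL
    · exact le_normalizer_iff_commutator_le_left.mp hNW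
  have hA₁L₁ : ⁅A₁, L₁⁆ ≤ coreOf 2 A₁ := by
    have h1 : ⁅A₁, L₁⁆ ≤ W ⊓ A₁ :=
      le_inf ((commutator_mono hA₁M hL₁LW).trans hMLW)
        (le_normalizer_iff_commutator_le_left.mp hL₁A₁)
    refine h1.trans (le_coreOf 2 inf_le_right ?_ ?_)
    · exact le_normalizer_inf' (hA₁M.trans hNW) le_normalizer
    · exact Nat.Coprime.coprime_dvd_left (Subgroup.card_dvd_of_le inf_le_left) hWp
  have hstep := ih (Nat.card X - Nat.card R₁) (by omega) R₁ L₁ (coreOf 2 A₁) rfl hR₁p hL₁perf hL₁R₁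
    (coreOf_le 2 A₁) (card_coreOf_coprime 2 A₁)
    (hL₁A₁.trans (normalizer_le_normalizer_coreOf 2 A₁))
    (hNA₁.trans (normalizer_le_normalizer_coreOf 2 A₁))
    (by
      apply commutator_le_of_perfect_mod (hNA₁.trans (normalizer_le_normalizer_coreOf 2 A₁))
        (hL₁A₁.trans (normalizer_le_normalizer_coreOf 2 A₁)) hL₁perf
      exact (commutator_mono (commutator_normalizer_le_centralizer hL₁R₁) le_rfl).trans hA₁L₁)
  obtain ⟨k, hk⟩ := hyk
  have hy' : y ∈ W ⊔ L₁ := by rw [sup_comm]; exact hLL₁ hy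
  obtain ⟨w, hw, l, hl, rfl⟩ :=
    (Cfsg.Agent.Lib.Helper22.mem_sup_of_le_normalizer (hL₁LW.trans hLWn)).mp hy'
  obtain ⟨a, m, hm, ham⟩ := Nat.exists_eq_two_pow_mul_odd (orderOf_pos l).ne'
  have hlm : l ^ m ∈ C := by
    apply hstep _ (pow_mem hl m)
    refine ⟨a, ?_⟩
    rw [← pow_mul, mul_comm, ← ham, pow_orderOf_eq_one]
  have hwC : w ∈ C := hEC (hWE hw).1
  have h1 : QuotientGroup.mk' C (w * l) = QuotientGroup.mk' C l := by
    have h0 : QuotientGroup.mk' C w = 1 := (QuotientGroup.eq_one_iff w).2 hwC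
    rw [map_mul, h0, one_mul]
  have h2 : QuotientGroup.mk' C (w * l) ^ m = 1 := by
    rw [h1, ← map_pow]
    exact (QuotientGroup.eq_one_iff _).2 hlm
  have h3 : QuotientGroup.mk' C (w * l) ^ (2 ^ k) = 1 := by
    rw [← map_pow, hk, map_one]
  have h4 := eq_one_of_pow_coprime ((Nat.coprime_two_right.mpr hm).pow_right k) h2 h3
  exact (QuotientGroup.eq_one_iff _).1 h4

end Cfsg.Agent.Lib.Helper31
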