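import Cfsg.Agent.Lib.Helper31.L2Bal5
import Cfsg.Agent.Lib.Helper31.LocalLayer4

set_option autoImplicit false

/-! Unconditional `L_{2'}`-balance (given the `Z*`-theorem). -/

namespace Cfsg.Agent.Lib.Helper31

open Subgroup
open scoped commutatorElement Pointwise
open Cfsg.Agent.Lib.Helper23 (coreOf coreOf_le le_coreOf card_coreOf_coprime
  normalizer_le_normalizer_coreOf le_normalizer_inf' commutator_le_of_perfect_mod
  eq_one_of_pow_coprime subgroupOf_commutator eq_bot_of_perfect_of_isPGroup
  le_of_perfect_of_coprime_mem fitting_eq_pCore le_layer_of_exists coreOf_le_of_isSubnormal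
  isPComponent_perfect isPComponent_le_or_commutator_le isPComponent_le_of_pElements
  pLayer_normal pLayer_map_mk' mem_of_isSubnormal_of_mem_sup)

universe u

theorem layer_perfect_aux {G : Type*} [Group G] : ⁅Cfsg.layer G, Cfsg.layer G⁆ = Cfsg.layer G := by
  have hn : (Cfsg.layer G).Normal := layer_normal
  apply le_antisymm (commutator_le_right _ _)
  apply sSup_le
  intro K hK
  calc K = ⁅K, K⁆ := (IsComponent.perfect hK).symm
    _ ≤ _ := commutator_mono (IsComponent.le_layer hK) (IsComponent.le_layer hK)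

/-- The core-free case, in an axiomatic form. -/
theorem le_layer_of_local_two {X : Type u} [Group X] [Finite X] (hZ : ZStarStatement.{u})
    (hO : Cfsg.pPrimeCore 2 X = ⊥)
    {R L W : Subgroup X} (hR : IsPGroup 2 R) (hLN : L ≤ normalizer (R : Set X))
    (hperf : ⁅L, L⁆ = L) (hW : normalizer (R : Set X) ≤ normalizer (W : Set X))
    (hWp : (Nat.card W).Coprime 2)
    (hH : ∀ H : Subgroup X, H ≤ normalizer (R : Set X) →
      normalizer (R : Set X) ≤ normalizer (H : Set X) → L ≤ H ∨ ⁅L, H⁆ ≤ W)
    (hgen : ∀ H : Subgroup X, H.Normal → (∀ y ∈ L, (∃ k : ℕ, y ^ (2 ^ k) = 1) → y ∈ H) → L ≤ H) :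
    L ≤ Cfsg.layer X := by
  set N := normalizer (R : Set X) with hN
  -- `L` centralizes the normal `2`-subgroups of `N`
  have hQ : ∀ Q : Subgroup X, Q ≤ N → N ≤ normalizer (Q : Set X) → IsPGroup 2 Q →
      L ≤ centralizer (Q : Set X) := by
    intro Q hQN hNQ hQp
    rcases hH Q hQN hNQ with h | h
    · rw [eq_bot_of_perfect_of_isPGroup 2 hperf (hQp.to_le h)]
      exact bot_le
    · rw [← commutator_eq_bot_iff_le_centralizer, eq_bot_iff]
      have h1 : ⁅L, Q⁆ ≤ Q := le_normalizer_iff_commutator_le_right.mp (hLN.trans hNQ)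
      obtain ⟨n, hn⟩ := IsPGroup.iff_card.mp hQp
      have h2 : W ⊓ Q = ⊥ := by
        apply Disjoint.eq_bot
        apply disjoint_of_coprime_natCard
        rw [hn]
        exact hWp.pow_right n
      exact h2 ▸ le_inf h h1
  have hLR : L ≤ centralizer (R : Set X) := hQ R le_normalizer le_rfl hR
  have hPn : (Cfsg.pCore 2 X).Normal := inferInstance
  have hPp : IsPGroup 2 (Cfsg.pCore 2 X) := Cfsg.Agent.Lib.Lead.pCore_isPGroup 2 X
  have htop : normalizer ((Cfsg.pCore 2 X : Subgroup X) : Set X) = ⊤ :=
    normalizer_eq_top_iff.mpr hPn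
  have hLP : L ≤ centralizer (Cfsg.pCore 2 X : Set X) := by
    have h1 : L ≤ centralizer ((Cfsg.pCore 2 X ⊓ N : Subgroup X) : Set X) :=
      hQ _ inf_le_right (le_normalizer_inf' (by rw [htop]; exact le_top) le_normalizer)
        (hPp.to_le inf_le_left)
    apply le_of_perfect_of_coprime_mem 2 hperf
    intro g hg hcop
    have hmain := Cfsg.Agent.Lib.Helper24.thompson_AxB 2 (zpowers g) R (Cfsg.pCore 2 X) hPp hR
      (by rw [Nat.card_zpowers]; exact hcop)
      (by rw [zpowers_le]; exact hLR hg)
      (by rw [htop]; exact le_top) (by rw [htop]; exact le_top)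
      (by
        intro q hq
        have hq' : q ∈ Cfsg.pCore 2 X ⊓ N := ⟨hq.1, centralizer_le_normalizer _ hq.2⟩
        have hc : Commute q g := mem_centralizer_iff.mp (h1 hg) q hq'
        rw [mem_centralizer_iff]
        rintro _ ⟨n, rfl⟩
        exact (hc.symm.zpow_left n).eq)
    rw [mem_centralizer_iff]
    intro q hq
    exact (mem_centralizer_iff.mp (hmain hq) g (mem_zpowers g)).symm
  have hLF : L ≤ centralizer (Cfsg.fittingSubgroup X : Set X) := by
    rw [fitting_eq_pCore 2 hO]; exact hLP
  have hEn : (Cfsg.layer X).Normal := layer_normal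
  have htopE : normalizer ((Cfsg.layer X : Subgroup X) : Set X) = ⊤ :=
    normalizer_eq_top_iff.mpr hEn
  have hNEN : N ≤ normalizer ((Cfsg.layer X ⊓ N : Subgroup X) : Set X) :=
    le_normalizer_inf' (by rw [htopE]; exact le_top) le_normalizer
  rcases hH (Cfsg.layer X ⊓ N) inf_le_right hNEN with h | hLW
  · exact h.trans inf_le_left
  · apply le_layer_of_exists hperf hLF
    have hCn : (centralizer (Cfsg.layer X : Set X)).Normal := inferInstance
    have hCsn : (Cfsg.layer X ⊔ centralizer (Cfsg.layer X : Set X)).Normal := inferInstance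
    have hLC : L ≤ Cfsg.layer X ⊔ centralizer (Cfsg.layer X : Set X) := by
      apply hgen _ hCsn
      have hW₀R : W ⊓ (Cfsg.layer X ⊓ N) ≤ centralizer (R : Set X) := by
        rw [← commutator_eq_bot_iff_le_centralizer, eq_bot_iff]
        obtain ⟨n, hn⟩ := IsPGroup.iff_card.mp hR
        have h2 : W ⊓ R = ⊥ := by
          apply Disjoint.eq_bot
          apply disjoint_of_coprime_natCard
          rw [hn]
          exact hWp.pow_right n
        rw [← h2]
        refine le_inf ?_ ?_
        · exact (commutator_mono inf_le_left le_rfl).trans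
            (le_normalizer_iff_commutator_le_left.mp (le_normalizer.trans hW))
        · exact (commutator_mono (inf_le_right.trans inf_le_right) le_rfl).trans
            (le_normalizer_iff_commutator_le_right.mp le_rfl)
      exact two_elements_mem hZ (E := Cfsg.layer X) layer_perfect_aux
        (by
          intro V hVE hEV hVc
          rw [eq_bot_iff, ← hO]
          exact (le_coreOf 2 hVE hEV hVc).trans (coreOf_le_of_isSubnormal 2 hEn.isSubnormal))
        le_sup_left le_sup_right _ R L (W ⊓ (Cfsg.layer X ⊓ N)) rfl hR hperf hLR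
        (le_inf (inf_le_right.trans inf_le_left) hW₀R)
        (Nat.Coprime.coprime_dvd_left (Subgroup.card_dvd_of_le inf_le_left) hWp)
        (le_normalizer_inf' (hLN.trans hW) (hLN.trans hNEN))
        (le_normalizer_inf' (inf_le_right.trans hW) le_normalizer)
        (le_inf (by rw [commutator_comm]; exact hLW)
          (le_normalizer_iff_commutator_le_left.mp (hLN.trans hNEN)))
    intro l hl
    obtain ⟨e, he, c, hc, rfl⟩ := mem_sup_of_normal_left.mp (hLC hl)
    exact ⟨e, he, by rwa [inv_mul_cancel_left]⟩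

/-- `L_{2'}`-balance for normalizers of `2`-subgroups. -/
theorem pLayer_two_normalizer_le {X : Type u} [Group X] [Finite X] (hZ : ZStarStatement.{u})
    (R : Subgroup X) (hR : IsPGroup 2 R) :
    (Cfsg.pLayer 2 ↥(normalizer (R : Set X))).map (normalizer (R : Set X)).subtype ≤
      Cfsg.pLayer 2 X := by
  set N := normalizer (R : Set X) with hN
  rw [map_le_iff_le_comap]
  apply sSup_le
  intro L hL
  have hL : Cfsg.IsPComponent 2 L := hL
  set O := Cfsg.pPrimeCore 2 X with hOdef
  set π := QuotientGroup.mk' O with hπ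
  have hOcop : (Nat.card O).Coprime 2 := Cfsg.Agent.Lib.Lead.card_pPrimeCore_coprime 2
  have hOnd : ¬ 2 ∣ Nat.card O := fun h =>
    (Nat.Prime.coprime_iff_not_dvd (Fact.out : (2 : ℕ).Prime)).mp hOcop.symm h
  have hNbar : normalizer ((R.map π : Subgroup (X ⧸ O)) : Set (X ⧸ O)) = N.map π :=
    Cfsg.Agent.Lib.Helper22.normalizer_map_mk'_eq R O hR hOnd
  set f : ↥N →* X ⧸ O := π.comp N.subtype with hf
  have hrange : f.range = N.map π := by
    rw [hf, MonoidHom.range_eq_map, ← map_map, ← MonoidHom.range_eq_map, range_subtype]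
  have hmain : L.map f ≤ Cfsg.layer (X ⧸ O) := by
    apply le_layer_of_local_two hZ (Cfsg.Agent.Lib.Lead.pPrimeCore_quotient_pPrimeCore 2 X)
      (R := R.map π) (W := (Cfsg.pPrimeCore 2 ↥N).map f) (hR.map π)
    · rw [hNbar, ← hrange]
      exact map_le_range f L
    · rw [← map_commutator, isPComponent_perfect 2 hL]
    · rw [hNbar, ← hrange, MonoidHom.range_eq_map]
      have h1 : (⊤ : Subgroup ↥N) ≤ normalizer ((Cfsg.pPrimeCore 2 ↥N : Subgroup ↥N) : Set ↥N) := by
        rw [normalizer_eq_top_iff.mpr inferInstance]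
      exact (map_mono h1).trans (le_normalizer_map f)
    · exact Nat.Coprime.coprime_dvd_left
        (Subgroup.card_dvd_of_surjective (f.subgroupMap _) (f.subgroupMap_surjective _))
        (Cfsg.Agent.Lib.Lead.card_pPrimeCore_coprime 2)
    · intro H hHN hNH
      rw [hNbar, ← hrange] at hHN hNH
      have hn : (H.comap f).Normal := by
        constructor
        intro n hn g
        rw [mem_comap] at hn ⊢
        rw [map_mul, map_mul, map_inv]
        exact (le_normalizer_iff.mp hNH) (f g) ⟨g, rfl⟩ (f n) hn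
      have hmc : (H.comap f).map f = H := by
        rw [map_comap_eq, inf_eq_right.mpr hHN]
      rcases isPComponent_le_or_commutator_le 2 hL hn.isSubnormal with h | h
      · left
        rw [← hmc]
        exact map_mono h
      · right
        rw [← hmc, ← map_commutator]
        exact map_mono h
    · intro H hHn hH
      rw [map_le_iff_le_comap]
      apply isPComponent_le_of_pElements 2 hL (hHn.comap f).isSubnormal
      intro y hy k hyk
      exact hH (f y) ⟨y, hy, rfl⟩ ⟨k, by rw [← map_pow, hyk, map_one]⟩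
  have hPn := pLayer_normal 2 X
  have hsub : ((Cfsg.pLayer 2 X).subgroupOf N).IsSubnormal := hPn.isSubnormal.subgroupOf
  apply isPComponent_le_of_pElements 2 hL hsub
  intro y hy k hyk
  rw [mem_subgroupOf]
  have h1 : π (y : X) ∈ (Cfsg.pLayer 2 X).map π := by
    rw [pLayer_map_mk']
    exact hmain ⟨y, hy, rfl⟩
  have h2 : (y : X) ∈ Cfsg.pLayer 2 X ⊔ O := by
    have h3 : (y : X) ∈ ((Cfsg.pLayer 2 X).map π).comap π := h1
    rwa [comap_map_eq, QuotientGroup.ker_mk'] at h3
  exact mem_of_isSubnormal_of_mem_sup 2 hPn.isSubnormal O hOcop h2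
    (by have := congrArg Subtype.val hyk; simpa using this)

/-- The `p`-layer of a normal subgroup lies in the `p`-layer. -/
theorem pLayer_map_le_of_normal_range {K G : Type*} [Group K] [Group G] [Finite K] [Finite G]
    (p : ℕ) [Fact p.Prime] (ι : K →* G) (hn : ι.range.Normal) :
    (Cfsg.pLayer p K).map ι ≤ Cfsg.pLayer p G := by
  rw [map_le_iff_le_comap]
  apply sSup_le
  intro L hL
  have hL : Cfsg.IsPComponent p L := hL
  have hPn := pLayer_normal p G
  apply isPComponent_le_of_pElements p hL (hPn.comap ι).isSubnormal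
  intro y hy k hyk
  rw [mem_comap]
  have h1 : y ∈ pPrimeE p K := by
    rw [mem_comap]
    exact (le_sSup hL.2.1 : _ ≤ Cfsg.layer _) ⟨y, hy, rfl⟩
  have hsn : ((pPrimeE p K).map ι).IsSubnormal := by
    have e : (pPrimeE p K).map ι = ((pPrimeE p K).map ι.rangeRestrict).map ι.range.subtype := by
      rw [map_map]; rfl
    rw [e]
    have hn1 : ((pPrimeE p K).map ι.rangeRestrict).Normal :=
      Normal.map inferInstance _ ι.rangeRestrict_surjective
    exact IsSubnormal.trans' hn1.isSubnormal hn.isSubnormal
  have h2 : ι y ∈ pPrimeE p G := pPrimeE_map_le p ι hsn ⟨y, h1, rfl⟩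
  have h3 : ι y ∈ ((Cfsg.pLayer p G).map (QuotientGroup.mk' (Cfsg.pPrimeCore p G))).comap
      (QuotientGroup.mk' (Cfsg.pPrimeCore p G)) := by
    rw [pLayer_map_mk']; exact h2
  rw [comap_map_eq, QuotientGroup.ker_mk'] at h3
  exact mem_of_isSubnormal_of_mem_sup p hPn.isSubnormal _
    (Cfsg.Agent.Lib.Lead.card_pPrimeCore_coprime p) h3 (k := k)
    (by rw [← map_pow, hyk, map_one])

/-- `L_{2'}`-balance for centralizers of `2`-subgroups. -/
theorem pLayer_two_centralizer_le {X : Type u} [Group X] [Finite X] (hZ : ZStarStatement.{u})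
    (T : Subgroup X) (hT : IsPGroup 2 T) :
    (Cfsg.pLayer 2 ↥(centralizer (T : Set X))).map (centralizer (T : Set X)).subtype ≤
      Cfsg.pLayer 2 X := by
  refine le_trans ?_ (pLayer_two_normalizer_le hZ T hT)
  have hle : centralizer (T : Set X) ≤ normalizer (T : Set X) := centralizer_le_normalizer _
  have hn : (inclusion hle).range.Normal := by
    rw [inclusion_range, normal_subgroupOf_iff_le_normalizer hle]
    exact Cfsg.Agent.Lib.Helper22.normalizer_le_normalizer_centralizer T
  have h1 := pLayer_map_le_of_normal_range 2 (inclusion hle) hn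
  have h2 := map_mono (f := (normalizer (T : Set X)).subtype) h1
  rw [map_map, subtype_comp_inclusion] at h2
  exact h2

end Cfsg.Agent.Lib.Helper31
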