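import Mathlib
import Cfsg.Agent.Lib.Helper3.OS.Defs

set_option autoImplicit false

namespace Cfsg.Agent.Lib.Helper31.OS
open Cfsg.Agent.Lib.Helper3.OS
open scoped commutatorElement

variable {T : Type*} [Group T] {m : ℕ}

/-- the `i`-th coordinate subgroup -/
def Tsub (T : Type*) [Group T] {m : ℕ} (i : Fin m) : Subgroup (Fin m → T) where
  carrier := {x | ∀ l, l ≠ i → x l = 1}
  one_mem' := fun _ _ => rfl
  mul_mem' := by
    intro a b ha hb l hl
    simp [ha l hl, hb l hl]
  inv_mem' := by
    intro a ha l hl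
    simp [ha l hl]

theorem mem_Tsub {i : Fin m} {x : Fin m → T} : x ∈ Tsub T i ↔ ∀ l, l ≠ i → x l = 1 := Iff.rfl

instance Tsub_normal (i : Fin m) : (Tsub T i).Normal := by
  constructor
  intro x hx g l hl
  simp [hx l hl]

theorem mulSingle_mem_Tsub (i : Fin m) (t : T) : Pi.mulSingle i t ∈ Tsub T i := by
  intro l hl
  classical
  exact Pi.mulSingle_eq_of_ne (M := fun _ => T) hl t

theorem eq_mulSingle_of_mem {i : Fin m} {x : Fin m → T} (hx : x ∈ Tsub T i) :
    x = Pi.mulSingle i (x i) := by
  funext l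
  by_cases h : l = i
  · subst h; simp
  · rw [hx l h, Pi.mulSingle_eq_of_ne h]

theorem center_bot [IsSimpleGroup T] (hT : ∃ a b : T, a * b ≠ b * a) :
    Subgroup.center T = ⊥ := by
  rcases (inferInstance : (Subgroup.center T).Normal).eq_bot_or_eq_top with h | h
  · exact h
  · exfalso
    obtain ⟨a, b, hab⟩ := hT
    have : a ∈ Subgroup.center T := by rw [h]; trivial
    exact hab ((Subgroup.mem_center_iff.1 this b).symm)

theorem normal_contains [IsSimpleGroup T] (hT : ∃ a b : T, a * b ≠ b * a)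
    (L : Subgroup (Fin m → T)) [hL : L.Normal] (hne : L ≠ ⊥) :
    ∃ j, Tsub T j ≤ L := by
  classical
  obtain ⟨x, hx, hx1⟩ : ∃ x ∈ L, x ≠ 1 := by
    obtain ⟨x, hx⟩ := Subgroup.ne_bot_iff_exists_ne_one.1 hne
    exact ⟨x.1, x.2, fun h => hx (Subtype.ext h)⟩
  have : ∃ j, x j ≠ 1 := by
    by_contra hcon
    push_neg at hcon
    exact hx1 (funext hcon)
  obtain ⟨j, hj⟩ := this
  have : ∃ t, t * x j ≠ x j * t := by
    by_contra hcon
    push_neg at hcon
    have : x j ∈ Subgroup.center T := Subgroup.mem_center_iff.2 hcon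
    rw [center_bot hT] at this
    exact hj (Subgroup.mem_bot.1 this)
  obtain ⟨t, ht⟩ := this
  refine ⟨j, ?_⟩
  have hM : (L.comap (MonoidHom.mulSingle (fun _ : Fin m => T) j)).Normal := hL.comap _
  have hmem : x j * t * (x j)⁻¹ * t⁻¹ ∈ L.comap (MonoidHom.mulSingle (fun _ : Fin m => T) j) := by
    rw [Subgroup.mem_comap]
    have h1 : x * Pi.mulSingle j t * x⁻¹ * (Pi.mulSingle j t)⁻¹ ∈ L := by
      have h2 : Pi.mulSingle j t * x⁻¹ * (Pi.mulSingle j t)⁻¹ ∈ L :=
        hL.conj_mem _ (L.inv_mem hx) _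
      have := L.mul_mem hx h2
      simpa [mul_assoc] using this
    convert h1 using 1
    funext l
    by_cases h : l = j
    · subst h; simp
    · simp [Pi.mulSingle_eq_of_ne h]
  rcases hM.eq_bot_or_eq_top with h | h
  · exfalso
    rw [h, Subgroup.mem_bot] at hmem
    apply ht
    have : x j * t = t * x j := by
      have h3 : x j * t * (x j)⁻¹ = t := by
        rwa [mul_inv_eq_one] at hmem
      rw [mul_inv_eq_iff_eq_mul] at h3
      exact h3
    exact this.symm
  · intro y hy
    rw [eq_mulSingle_of_mem hy]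
    have : y j ∈ L.comap (MonoidHom.mulSingle (fun _ : Fin m => T) j) := by rw [h]; trivial
    exact this

theorem Tsub_ne_bot [Nontrivial T] (i : Fin m) : Tsub T i ≠ ⊥ := by
  classical
  obtain ⟨t, ht⟩ := exists_ne (1 : T)
  intro h
  have := mulSingle_mem_Tsub i t
  rw [h, Subgroup.mem_bot] at this
  apply ht
  have := congrFun this i
  simpa using this

theorem Tsub_le_iff [Nontrivial T] {i j : Fin m} (h : Tsub T i ≤ Tsub T j) : i = j := by
  classical
  obtain ⟨t, ht⟩ := exists_ne (1 : T)
  by_contra hij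
  have := h (mulSingle_mem_Tsub i t) i hij
  simp at this
  exact ht this

theorem exists_image [IsSimpleGroup T] (hT : ∃ a b : T, a * b ≠ b * a)
    (α : (Fin m → T) ≃* (Fin m → T)) (i : Fin m) :
    ∃ j, ∀ x, x ∈ Tsub T i ↔ α x ∈ Tsub T j := by
  classical
  have hL : ((Tsub T i).map α.toMonoidHom).Normal :=
    Subgroup.Normal.map inferInstance _ α.surjective
  have hLne : (Tsub T i).map α.toMonoidHom ≠ ⊥ := by
    intro h
    rw [Subgroup.map_eq_bot_iff_of_injective _ α.injective] at h
    exact Tsub_ne_bot i h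
  obtain ⟨j, hj⟩ := normal_contains hT _ hLne
  have hL' : ((Tsub T j).comap α.toMonoidHom).Normal := Subgroup.Normal.comap inferInstance _
  have hle : (Tsub T j).comap α.toMonoidHom ≤ Tsub T i := by
    intro x hx
    obtain ⟨y, hy, hyx⟩ := hj (Subgroup.mem_comap.1 hx)
    have : y = x := α.injective hyx
    exact this ▸ hy
  have hL'ne : (Tsub T j).comap α.toMonoidHom ≠ ⊥ := by
    intro h
    apply Tsub_ne_bot (T := T) j
    rw [eq_bot_iff]
    intro y hy
    have : α.symm y ∈ (Tsub T j).comap α.toMonoidHom := by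
      rw [Subgroup.mem_comap]
      simpa using hy
    rw [h, Subgroup.mem_bot] at this
    rw [Subgroup.mem_bot]
    have h2 := congrArg α this
    simpa using h2
  obtain ⟨i', hi'⟩ := normal_contains hT _ hL'ne
  have : i' = i := Tsub_le_iff (hi'.trans hle)
  subst this
  exact ⟨j, fun x => ⟨fun hx => hi' hx, fun hx => hle hx⟩⟩

/-- [Q1] automorphisms of `T^m` are monomial -/
theorem exists_monomial [IsSimpleGroup T] (hT : ∃ a b : T, a * b ≠ b * a)
    (α : (Fin m → T) ≃* (Fin m → T)) :
    ∃ s : Equiv.Perm (Fin m) × (Fin m → (T ≃* T)), ∀ x, α x = act s x := by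
  classical
  choose σ hσ using exists_image hT α
  have hinj : Function.Injective σ := by
    intro i i' h
    apply Tsub_le_iff (T := T)
    intro x hx
    rw [hσ i', ← h, ← hσ i]
    exact hx
  have hbij : Function.Bijective σ := Finite.injective_iff_bijective.1 hinj
  let φ₀ : Fin m → (T →* T) := fun i =>
    (Pi.evalMonoidHom (fun _ : Fin m => T) (σ i)).comp
      (α.toMonoidHom.comp (MonoidHom.mulSingle (fun _ : Fin m => T) i))
  have hφ₀ : ∀ i t, φ₀ i t = α (Pi.mulSingle i t) (σ i) := fun i t => rfl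
  have hφbij : ∀ i, Function.Bijective (φ₀ i) := by
    intro i
    constructor
    · rw [injective_iff_map_eq_one]
      intro t ht
      rw [hφ₀] at ht
      have h1 : α (Pi.mulSingle i t) ∈ Tsub T (σ i) := (hσ i _).1 (mulSingle_mem_Tsub i t)
      have h2 : α (Pi.mulSingle i t) = 1 := by
        rw [eq_mulSingle_of_mem h1, ht]; simp
      have h3 : (Pi.mulSingle i t : Fin m → T) = 1 := by
        apply α.injective; rw [h2, map_one]
      have := congrFun h3 i
      simpa using this
    · intro u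
      have h1 : α (α.symm (Pi.mulSingle (σ i) u)) ∈ Tsub T (σ i) := by
        simpa using mulSingle_mem_Tsub (σ i) u
      have h2 := (hσ i _).2 h1
      refine ⟨α.symm (Pi.mulSingle (σ i) u) i, ?_⟩
      rw [hφ₀, ← eq_mulSingle_of_mem h2]
      simp
  let φ : Fin m → (T ≃* T) := fun i => MulEquiv.ofBijective (φ₀ i) (hφbij i)
  have hφ : ∀ i t, φ i t = α (Pi.mulSingle i t) (σ i) := fun i t => rfl
  have hc : ∀ x i, α x (σ i) = φ i (x i) := by
    intro x i
    set y : Fin m → T := (Pi.mulSingle i (x i))⁻¹ * x with hy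
    have hyi : y i = 1 := by simp [hy]
    have hx : x = Pi.mulSingle i (x i) * y := by simp [hy]
    clear_value y
    have hcomm : ∀ z ∈ Tsub T i, z * y = y * z := by
      intro z hz
      funext l
      by_cases h : l = i
      · subst h; simp [hyi]
      · simp [hz l h]
    have hcen : α y (σ i) ∈ Subgroup.center T := by
      rw [Subgroup.mem_center_iff]
      intro u
      have h1 : α (α.symm (Pi.mulSingle (σ i) u)) ∈ Tsub T (σ i) := by
        simpa using mulSingle_mem_Tsub (σ i) u
      have h2 := (hσ i _).2 h1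
      have h3 := congrArg α (hcomm _ h2)
      rw [map_mul, map_mul, MulEquiv.apply_symm_apply] at h3
      have h4 := congrFun h3 (σ i)
      rw [Pi.mul_apply, Pi.mul_apply, Pi.mulSingle_eq_same] at h4
      exact h4
    rw [center_bot hT, Subgroup.mem_bot] at hcen
    conv_lhs => rw [hx]
    rw [map_mul, Pi.mul_apply, hcen, mul_one, hφ]
  refine ⟨(Equiv.ofBijective σ hbij, φ), ?_⟩
  intro x
  funext j
  obtain ⟨i, rfl⟩ := hbij.2 j
  have := act_apply (Equiv.ofBijective σ hbij, φ) x i
  simp only [Equiv.ofBijective_apply] at this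
  rw [this, hc]

end Cfsg.Agent.Lib.Helper31.OS
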