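import Mathlib
import Cfsg.Agent.Lib.Helper3.OS.Defs

set_option autoImplicit false

namespace Cfsg.Agent.Lib.Helper31.OS
open Cfsg.Agent.Lib.Helper3.OS

variable {T : Type*} [Group T] {m : ℕ}

/-- [Q3a] equal kernels give a twist -/
theorem exists_twist (X : Subgroup (Fin m → T)) (hsub : ∀ i t, ∃ x ∈ X, x i = t) {i j : Fin m}
    (h : Rel X i j) : ∃ θ : T ≃* T, ∀ x ∈ X, θ (x i) = x j := by
  classical
  have key : ∀ {i j : Fin m}, Rel X i j → ∀ x ∈ X, ∀ x' ∈ X, x i = x' i → x j = x' j := by
    intro i j h x hx x' hx' e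
    have h1 : (x * x'⁻¹) i = 1 := by simp [e]
    have h2 := (h _ (X.mul_mem hx (X.inv_mem hx'))).1 h1
    simpa [mul_inv_eq_one] using h2
  choose c hcX hc using hsub
  have hθ : ∀ {i j : Fin m}, Rel X i j → ∀ x ∈ X, c i (x i) j = x j := by
    intro i j h x hx
    exact key h _ (hcX i (x i)) x hx (hc i (x i))
  refine ⟨{ toFun := fun t => c i t j, invFun := fun t => c j t i, left_inv := ?_,
            right_inv := ?_, map_mul' := ?_ }, ?_⟩
  · intro t
    have := hθ h.symm (c i t) (hcX i t)
    simp only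
    rw [this, hc]
  · intro t
    have := hθ h (c j t) (hcX j t)
    simp only
    rw [this, hc]
  · intro a b
    have := hθ h (c i a * c i b) (X.mul_mem (hcX i a) (hcX i b))
    simp only [Pi.mul_apply, hc] at this
    exact this
  · intro x hx
    exact hθ h x hx

end Cfsg.Agent.Lib.Helper31.OS
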