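import Mathlib
import Cfsg.Agent.Lib.Helper3.OS.Defs

set_option autoImplicit false

namespace Cfsg.Agent.Lib.Helper31.OS
open Cfsg.Agent.Lib.Helper3.OS
open scoped commutatorElement

variable {T : Type*} [Group T] {m : ℕ}

/-- the `i`-coordinates of the elements of `X` that vanish on `J` -/
def SS (X : Subgroup (Fin m → T)) (i : Fin m) (J : Finset (Fin m)) : Subgroup T where
  carrier := {t | ∃ x ∈ X, x i = t ∧ ∀ j ∈ J, x j = 1}
  one_mem' := ⟨1, X.one_mem, rfl, fun _ _ => rfl⟩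
  mul_mem' := by
    rintro a b ⟨x, hx, rfl, hx1⟩ ⟨y, hy, rfl, hy1⟩
    exact ⟨x * y, X.mul_mem hx hy, rfl, fun j hj => by simp [hx1 j hj, hy1 j hj]⟩
  inv_mem' := by
    rintro a ⟨x, hx, rfl, hx1⟩
    exact ⟨x⁻¹, X.inv_mem hx, rfl, fun j hj => by simp [hx1 j hj]⟩

theorem mem_SS {X : Subgroup (Fin m → T)} {i : Fin m} {J : Finset (Fin m)} {t : T} :
    t ∈ SS X i J ↔ ∃ x ∈ X, x i = t ∧ ∀ j ∈ J, x j = 1 := Iff.rfl

theorem SS_normal (X : Subgroup (Fin m → T)) (hsub : ∀ i t, ∃ x ∈ X, x i = t) (i : Fin m)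
    (J : Finset (Fin m)) : (SS X i J).Normal := by
  constructor
  rintro t ⟨x, hx, rfl, hx1⟩ g
  obtain ⟨y, hy, rfl⟩ := hsub i g
  exact ⟨y * x * y⁻¹, X.mul_mem (X.mul_mem hy hx) (X.inv_mem hy), rfl,
    fun j hj => by simp [hx1 j hj]⟩

theorem SS_pair_top [IsSimpleGroup T] (X : Subgroup (Fin m → T))
    (hsub : ∀ i t, ∃ x ∈ X, x i = t) {i j₀ : Fin m} (h : ¬ Rel X i j₀) : SS X i {j₀} = ⊤ := by
  rcases (SS_normal X hsub i {j₀}).eq_bot_or_eq_top with hE | hE
  · exfalso
    have h1 : ∀ x ∈ X, x j₀ = 1 → x i = 1 := by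
      intro x hx hx1
      have : x i ∈ SS X i {j₀} := ⟨x, hx, rfl, by simpa using hx1⟩
      rw [hE] at this
      exact Subgroup.mem_bot.1 this
    rcases (SS_normal X hsub j₀ {i}).eq_bot_or_eq_top with hF | hF
    · apply h
      intro x hx
      refine ⟨fun hx1 => ?_, h1 x hx⟩
      have : x j₀ ∈ SS X j₀ {i} := ⟨x, hx, rfl, by simpa using hx1⟩
      rw [hF] at this
      exact Subgroup.mem_bot.1 this
    · obtain ⟨t, ht⟩ := exists_ne (1 : T)
      obtain ⟨z, hz, hzi⟩ := hsub i t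
      have : z j₀ ∈ SS X j₀ {i} := by rw [hF]; trivial
      obtain ⟨y, hy, hy1, hy2⟩ := this
      have hy2' : y i = 1 := hy2 i (by simp)
      have h3 := h1 (z * y⁻¹) (X.mul_mem hz (X.inv_mem hy)) (by simp [hy1])
      apply ht
      rw [← hzi]
      simpa [hy2'] using h3
  · exact hE

theorem commutator_top [IsSimpleGroup T] (hT : ∃ a b : T, a * b ≠ b * a) :
    commutator T = ⊤ := by
  rcases (inferInstance : (commutator T).Normal).eq_bot_or_eq_top with h | h
  · exfalso
    obtain ⟨a, b, hab⟩ := hT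
    have : ⁅a, b⁆ ∈ commutator T := Subgroup.commutator_mem_commutator (Subgroup.mem_top a) (Subgroup.mem_top b)
    rw [h, Subgroup.mem_bot, commutatorElement_eq_one_iff_mul_comm] at this
    exact hab this
  · exact h

theorem claimC [IsSimpleGroup T] (hT : ∃ a b : T, a * b ≠ b * a)
    (X : Subgroup (Fin m → T)) (hsub : ∀ i t, ∃ x ∈ X, x i = t) (J : Finset (Fin m)) :
    ∀ i, (∀ j ∈ J, ¬ Rel X i j) → SS X i J = ⊤ := by
  classical
  induction J using Finset.induction_on with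
  | empty =>
    intro i _
    rw [eq_top_iff]
    intro t _
    obtain ⟨x, hx, rfl⟩ := hsub i t
    exact ⟨x, hx, rfl, by simp⟩
  | insert j₀ J' hj₀ ih =>
    intro i hi
    have h1 := SS_pair_top X hsub (hi j₀ (Finset.mem_insert_self _ _))
    have h2 := ih i (fun j hj => hi j (Finset.mem_insert_of_mem hj))
    rw [eq_top_iff, ← commutator_top hT, commutator_def, Subgroup.commutator_le]
    intro a _ b _
    have ha : a ∈ SS X i J' := by rw [h2]; trivial
    have hb : b ∈ SS X i {j₀} := by rw [h1]; trivial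
    obtain ⟨d, hd, rfl, hd1⟩ := ha
    obtain ⟨e, he, rfl, he1⟩ := hb
    refine ⟨⁅d, e⁆, ?_, ?_, ?_⟩
    · rw [commutatorElement_def]
      exact X.mul_mem (X.mul_mem (X.mul_mem hd he) (X.inv_mem hd)) (X.inv_mem he)
    · simp [commutatorElement_def]
    · intro j hj
      rcases Finset.mem_insert.1 hj with rfl | hj
      · have : e j = 1 := he1 j (by simp)
        simp [commutatorElement_def, this]
      · simp [commutatorElement_def, hd1 j hj]

/-- [Q3b] independence of inequivalent coordinates -/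
theorem exists_of_indep [IsSimpleGroup T] (hT : ∃ a b : T, a * b ≠ b * a)
    (X : Subgroup (Fin m → T)) (hsub : ∀ i t, ∃ x ∈ X, x i = t)
    (J : Finset (Fin m)) (hJ : ∀ i ∈ J, ∀ j ∈ J, Rel X i j → i = j) (f : Fin m → T) :
    ∃ x ∈ X, ∀ j ∈ J, x j = f j := by
  classical
  induction J using Finset.induction_on with
  | empty => exact ⟨1, X.one_mem, by simp⟩
  | insert i J' hi ih =>
    obtain ⟨x', hx', hx'1⟩ := ih (fun a ha b hb => hJ a (Finset.mem_insert_of_mem ha) b
      (Finset.mem_insert_of_mem hb))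
    have hC := claimC hT X hsub J' i (fun j hj hr => by
      have := hJ i (Finset.mem_insert_self _ _) j (Finset.mem_insert_of_mem hj) hr
      exact hi (this ▸ hj))
    have : f i * (x' i)⁻¹ ∈ SS X i J' := by rw [hC]; trivial
    obtain ⟨d, hd, hd1, hd2⟩ := this
    refine ⟨d * x', X.mul_mem hd hx', ?_⟩
    intro j hj
    rcases Finset.mem_insert.1 hj with rfl | hj
    · simp [hd1]
    · simp [hd2 j hj, hx'1 j hj]

end Cfsg.Agent.Lib.Helper31.OS
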