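import Mathlib
import Cfsg.Agent.Lib.Helper3.OS.Defs

set_option autoImplicit false

namespace Cfsg.Agent.Lib.Helper31.OS
open Cfsg.Agent.Lib.Helper3.OS

variable {T : Type*} [Group T] {m : ℕ}

/-- [Q3c] all classes have the same size -/
theorem card_class_eq (X : Subgroup (Fin m → T))
    (𝒮 : Set (Equiv.Perm (Fin m) × (Fin m → (T ≃* T))))
    (hinv : ∀ s ∈ 𝒮, ∀ x, act s x ∈ X ↔ x ∈ X)
    (htr : ∀ i j, ∃ s ∈ 𝒮, s.1 i = j) (i j : Fin m) :
    Nat.card {l : Fin m // Rel X l i} = Nat.card {l : Fin m // Rel X l j} := by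
  have step : ∀ s ∈ 𝒮, ∀ l i, Rel X l i → Rel X (s.1 l) (s.1 i) := by
    intro s hs l i h x hx
    set y : Fin m → T := fun l => (s.2 l).symm (x (s.1 l)) with hy
    have hact : act s y = x := by
      funext k
      obtain ⟨l, rfl⟩ := s.1.surjective k
      rw [act_apply]; simp [hy]
    have hyX : y ∈ X := (hinv s hs y).1 (hact ▸ hx)
    have := h y hyX
    simp only [hy] at this
    simpa using this
  have le : ∀ i j, Nat.card {l : Fin m // Rel X l i} ≤ Nat.card {l : Fin m // Rel X l j} := by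
    intro i j
    obtain ⟨s, hs, rfl⟩ := htr i j
    refine Nat.card_le_card_of_injective (fun l => ⟨s.1 l.1, step s hs _ _ l.2⟩) ?_
    intro a b hab
    simp only [Subtype.mk.injEq] at hab
    exact Subtype.ext (s.1.injective hab)
  exact le_antisymm (le i j) (le j i)

end Cfsg.Agent.Lib.Helper31.OS
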