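import Cfsg.Agent.Lib.Helper31.LocalLayer7

set_option autoImplicit false

/-! Components of involution centralizers, standard subgroups. -/

namespace Cfsg.Agent.Lib.Helper31

open Subgroup
open scoped commutatorElement

variable {G : Type*} [Group G]

/-- conjugating a component of a subgroup -/
theorem IsComponent.cj_subgroupOf {E X : Subgroup G} (g : G)
    (h : Cfsg.IsComponent (E.subgroupOf X)) : Cfsg.IsComponent ((cj g E).subgroupOf (cj g X)) := by
  have h1 := IsComponent.map_equiv h ((MulAut.conj g).subgroupMap X)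
  have h2 : (E.subgroupOf X).map ((MulAut.conj g).subgroupMap X).toMonoidHom =
      (cj g E).subgroupOf (cj g X) := by
    ext y
    constructor
    · rintro ⟨z, hz, rfl⟩
      exact ⟨z, hz, rfl⟩
    · intro hy
      obtain ⟨e, he, hey⟩ := hy
      obtain ⟨w, hw, hwy⟩ := y.2
      have hew : e = w := (MulAut.conj g).injective (hey.trans hwy.symm)
      refine ⟨⟨w, hw⟩, ?_, Subtype.ext hwy⟩
      exact mem_subgroupOf.mpr (hew ▸ he)
  exact h2 ▸ h1

theorem cj_centralizer_singleton (g y : G) :
    cj g (centralizer ({y} : Set G)) = centralizer ({g * y * g⁻¹} : Set G) := by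
  ext z
  rw [mem_cj, mem_centralizer_singleton_iff, mem_centralizer_singleton_iff]
  constructor
  · intro h
    calc z * (g * y * g⁻¹) = g * ((g⁻¹ * z * g) * y) * g⁻¹ := by group
      _ = g * (y * (g⁻¹ * z * g)) * g⁻¹ := by rw [h]
      _ = g * y * g⁻¹ * z := by group
  · intro h
    calc g⁻¹ * z * g * y = g⁻¹ * (z * (g * y * g⁻¹)) * g := by group
      _ = g⁻¹ * (g * y * g⁻¹ * z) * g := by rw [h]
      _ = y * (g⁻¹ * z * g) := by group

/-- two components (in ambient form) of a subgroup `X` are equal or commute -/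
theorem IsComponent.eq_or_commutator_eq_bot_of_subgroupOf {E F X : Subgroup G} (hEX : E ≤ X)
    (hFX : F ≤ X) (hE : Cfsg.IsComponent (E.subgroupOf X)) (hF : Cfsg.IsComponent (F.subgroupOf X)) :
    E = F ∨ ⁅E, F⁆ = ⊥ := by
  by_cases h : E = F
  · exact Or.inl h
  · right
    have hne : E.subgroupOf X ≠ F.subgroupOf X := by
      intro h0
      apply h
      rw [← map_subgroupOf_eq_of_le hEX, ← map_subgroupOf_eq_of_le hFX, h0]
    have h1 := congrArg (map X.subtype) (IsComponent.commutator_eq_bot_of_ne hE hF hne)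
    rwa [map_commutator, map_subgroupOf_eq_of_le hEX, map_subgroupOf_eq_of_le hFX,
      Subgroup.map_bot] at h1

/-- If `L` is a component of `C_G(y)` for every involution `y ∈ C_G(L)`, then an involution in
`C_G(L) ∩ C_G(L)^g` forces `L^g = L` or `[L, L^g] = 1`. -/
theorem cj_eq_or_commutator_eq_bot_of_involution {L : Subgroup G}
    (hne : ∀ y : G, orderOf y = 2 → y ∈ centralizer (L : Set G) →
      L ≤ centralizer ({y} : Set G) ∧ Cfsg.IsComponent (L.subgroupOf (centralizer ({y} : Set G))))
    (g y : G) (hy : orderOf y = 2) (hyK : y ∈ centralizer (L : Set G))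
    (hyg : y ∈ cj g (centralizer (L : Set G))) : L = cj g L ∨ ⁅L, cj g L⁆ = ⊥ := by
  obtain ⟨hLy, hLcomp⟩ := hne y hy hyK
  have hy' : g⁻¹ * y * g ∈ centralizer (L : Set G) := mem_cj.mp hyg
  have hoy' : orderOf (g⁻¹ * y * g) = 2 := by
    have := orderOf_injective (MulAut.conj g⁻¹).toMonoidHom (MulAut.conj g⁻¹).injective y
    rw [← hy, ← this]
    simp
  obtain ⟨hLy', hLcomp'⟩ := hne _ hoy' hy'
  have h1 := IsComponent.cj_subgroupOf g hLcomp'
  have h2 : g * (g⁻¹ * y * g) * g⁻¹ = y := by group
  rw [cj_centralizer_singleton, h2] at h1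
  have h3 : cj g L ≤ centralizer ({y} : Set G) := by
    have := map_mono (f := (MulAut.conj g).toMonoidHom) hLy'
    have h4 := cj_centralizer_singleton g (g⁻¹ * y * g)
    rw [h2] at h4
    exact h4 ▸ this
  exact IsComponent.eq_or_commutator_eq_bot_of_subgroupOf hLy h3 hLcomp h1

end Cfsg.Agent.Lib.Helper31
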